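import Cfsg.Agent.H41.S6Kit2
import Cfsg.Agent.H93.GT
import Cfsg.Agent.H3.Cores

/-! Project SP6, piece BASE: the normalizer of `E3` normalizes `Λ`. -/

set_option autoImplicit false
set_option maxRecDepth 100000
set_option linter.unusedSectionVars false

namespace Cfsg.Agent.H60.S6Base

open Cfsg Subgroup
open Cfsg.Agent.H44 Cfsg.Agent.H55.Sp6 Cfsg.Agent.H2.L3E Cfsg.Agent.H41.S6

universe u

def cnt (P : ℕ → Bool) : ℕ := ((Finset.range 64).filter fun c => P c = true).card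

def ob (b1 b3 b7 : Bool) (c : ℕ) : Bool :=
  rep c == 8 || (rep c == 1 && b1 || (rep c == 3 && b3 || rep c == 7 && b7))

theorem eqns_cnt : True := by have := @cnt.eq_1; trivial
theorem eqns_ob : True := by have := @ob.eq_1; trivial

theorem key : ∀ b1 b3 b7 : Bool, (∀ o ∈ [1, 3, 7], ob b1 b3 b7 o = true →
    cnt (fun c => ob b1 b3 b7 c && ob b1 b3 b7 (c ^^^ o)) =
      cnt (fun c => ob b1 b3 b7 c && ob b1 b3 b7 (c ^^^ 8))) →
    (∀ c < 64, ob b1 b3 b7 c = true → c % 8 = 0) ∨ 5 ∣ cnt (ob b1 b3 b7) ∨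
      9 ∣ cnt (ob b1 b3 b7) := by decide +kernel

theorem ncard_eq {G : Type*} {f : ℕ → G} (hf : ∀ c < 64, ∀ d < 64, f c = f d → c = d)
    {P : ℕ → Bool} {Y : Set G} (hY : ∀ y, y ∈ Y ↔ ∃ c < 64, P c = true ∧ y = f c) :
    Y.ncard = cnt P := by
  have e : Y = f '' ((Finset.range 64).filter fun c => P c = true : Finset ℕ) := by
    ext y
    simp only [hY, Set.mem_image, Finset.mem_coe, Finset.mem_filter, Finset.mem_range]
    exact ⟨fun ⟨c, h1, h2, h3⟩ => ⟨c, ⟨h1, h2⟩, h3.symm⟩,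
      fun ⟨c, ⟨h1, h2⟩, h3⟩ => ⟨c, h1, h2, h3.symm⟩⟩
  rw [e, Set.InjOn.ncard_image, Set.ncard_coe_finset, cnt]
  intro c hc d hd
  simp only [Finset.mem_coe, Finset.mem_filter, Finset.mem_range] at hc hd
  exact hf c hc.1 d hd.1

variable {G : Type u} [Group G] [Finite G] {ι : Sp →* G} {t : G} (h : Hy ι t) (nl : NL ι t)
include h nl

theorem cj_X {n : G} (hn : n ∈ NE ι t) {a : Sp} (ha : a ∈ A) (hc : IsConj t (t * ι a)) :
    ∃ b ∈ A, n * (t * ι a) * n⁻¹ = t * ι b := by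
  obtain ⟨b, hb, e | e⟩ := h.mem_E3.1 (mem_NE.1 hn _ (h.mem_E3.2 ⟨a, ha, Or.inr rfl⟩))
  · exact absurd (hc.trans (isConj_iff.2 ⟨n, e⟩)) (nl b)
  · exact ⟨b, hb, e⟩

theorem cj_pair {n : G} (hn : n ∈ NE ι t) {a b : Sp} (ha : a ∈ A) (hb : b ∈ A)
    (hc : IsConj t (t * ι a)) (hd : IsConj t (t * ι b)) :
    ∃ c ∈ A, n * ι (a * b) * n⁻¹ = ι c := by
  have e : ∀ a b, ι (a * b) = t * ι a * (t * ι b) := fun a b => by
    rw [mul_assoc, ← mul_assoc (ι a), ← h.ct, mul_assoc, h.ttx, map_mul]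
  obtain ⟨a', ha', e1⟩ := cj_X h nl hn ha hc
  obtain ⟨b', hb', e2⟩ := cj_X h nl hn hb hd
  exact ⟨a' * b', mul_mem ha' hb', by rw [e, e, ← conj_mul, e1, e2]⟩

theorem cj_a12 (hc : CI ι t ∨ CII ι t ∨ CIII ι t) {n : G} (hn : n ∈ NE ι t) :
    ∃ c < 64, n * ι a12 * n⁻¹ = ι (ac c) := by
  have h1 : IsConj t (t * ι 1) := by rw [map_one, mul_one]
  have h2 := Lam_le_A a12_Lam
  suffices ∃ c ∈ A, n * ι a12 * n⁻¹ = ι c by
    obtain ⟨_, hc, e⟩ := this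
    obtain ⟨c, h3, rfl⟩ := A_par.1 hc
    exact ⟨c, h3, e⟩
  rcases hc with hc | hc | hc
  · have k : ∀ u < 8, IsConj t (t * ι (g u)) := fun u hu => (hc _ (g_mem_A hu)).2 ⟨u, hu, rfl⟩
    obtain ⟨a, ha, e1⟩ := cj_pair h nl hn (one_mem _) (g_mem_A (by omega : 1 < 8)) h1
      (k 1 (by omega))
    obtain ⟨b, hb, e2⟩ := cj_pair h nl hn (g_mem_A (by omega : 2 < 8)) (g_mem_A (by omega : 3 < 8))
      (k 2 (by omega)) (k 3 (by omega))
    refine ⟨a * b, mul_mem ha hb, ?_⟩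
    rw [map_mul, ← e1, ← e2, conj_mul, ← map_mul, one_mul, g_eq 3, ← ev_cons, ← ev_cons]
    rfl
  · simpa using cj_pair h nl hn (one_mem _) h2 h1 ((hc _ h2).2 a12_Lam)
  · simpa using cj_pair h nl hn (one_mem _) h2 h1 (hc _ h2)

theorem card_NE (tr : Tr ι t) (hc : CI ι t ∨ CII ι t ∨ CIII ι t) :
    ∃ k, Nat.card (NE ι t) ∣ 2 ^ k * Nat.card P3 := by
  have h1 : Nat.card ↥(NE ι t ⊓ centralizer {t}) ∣ Nat.card P3 * 2 := by
    have l : NE ι t ⊓ centralizer {t} ≤ P3.map ι ⊔ zpowers t := fun x hx => by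
      obtain ⟨l, rfl | rfl⟩ := h.cen x (mem_centralizer_singleton_iff.1 hx.2)
      · exact (h.mem_sup P3).2 ⟨l, h.NE_P3 hx.1, Or.inl rfl⟩
      · exact (h.mem_sup P3).2 ⟨l, h.NE_P3 ((mul_mem_cancel_left (le_normalizer
          (mem_sup_right (mem_zpowers t)))).1 hx.1), Or.inr rfl⟩
    refine (card_dvd_of_le l).trans ((H3.card_sup_dvd_of_le_normalizer ?_).trans ?_)
    · rintro _ ⟨l, -, rfl⟩
      refine centralizer_le_normalizer _ ?_
      rintro _ ⟨i, rfl⟩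
      exact (Commute.zpow_left (h.ct l) i).eq
    · rw [h.card_map, Nat.card_zpowers]
      exact Nat.mul_dvd_mul_left _ (orderOf_dvd_of_pow_eq_one (by rw [pow_two, h.tt]))
  have h2 : ∀ P : ℕ → Bool, (∀ c < 64, IsConj t (t * ι (ac c)) ↔ P c = true) →
      {y | ∃ n ∈ NE ι t, y = n * t * n⁻¹}.ncard = cnt P := fun P hP => by
    refine ncard_eq (f := fun c => t * ι (ac c))
      (fun c hc d hd e => ac_inj hc hd (h.inj (mul_left_cancel e))) fun y => ⟨?_, ?_⟩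
    · rintro ⟨n, hn, rfl⟩
      obtain ⟨b, hb, e⟩ := cj_X h nl hn (one_mem _) (by rw [map_one, mul_one])
      rw [map_one, mul_one] at e
      obtain ⟨c, hc, rfl⟩ := A_par.1 hb
      exact ⟨c, hc, (hP c hc).1 (isConj_iff.2 ⟨n, e⟩), e⟩
    · rintro ⟨c, hc, hp, rfl⟩
      obtain ⟨n, hn, e⟩ := tr _ (h.mem_E3.2 ⟨_, ac_mem hc, Or.inr rfl⟩) ((hP c hc).2 hp)
      exact ⟨n, hn, e.symm⟩
  obtain ⟨k, hk⟩ : ∃ k, {y | ∃ n ∈ NE ι t, y = n * t * n⁻¹}.ncard = 2 ^ k := by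
    rcases hc with hc | hc | hc
    · refine ⟨3, (h2 (fun c : ℕ => decide (∃ u : ℕ, u < 8 ∧ c = bc u)) fun c c64 => ?_).trans
        (by decide +kernel)⟩
      rw [hc _ (ac_mem c64), decide_eq_true_iff]
      exact exists_congr fun u => and_congr_right fun hu =>
        ⟨fun e => ac_inj c64 (bc_lt u hu) (e.trans (g_bc hu)), fun e => by rw [e, g_bc hu]⟩
    · refine ⟨3, (h2 (fun c => decide (c % 8 = 0)) fun c c64 => ?_).trans (by decide +kernel)⟩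
      rw [hc _ (ac_mem c64), decide_eq_true_iff, ac_mem_Lam c64]
    · exact ⟨6, (h2 (fun _ => true) fun c c64 => ⟨fun _ => rfl, fun _ => hc _ (ac_mem c64)⟩).trans
        (by decide +kernel)⟩
  refine ⟨k + 1, ?_⟩
  rw [← H93.GT.ncard_cls (NE ι t) t, hk, pow_succ, mul_assoc, mul_comm 2]
  exact Nat.mul_dvd_mul_left _ h1

theorem cj_Lam (k : KF) (tr : Tr ι t) (hc : CI ι t ∨ CII ι t ∨ CIII ι t) {n : G}
    (hn : n ∈ NE ι t) {a : Sp} (ha : a ∈ Lam) : ∃ x < 8, n * ι a * n⁻¹ = ι (ac (8 * x)) := by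
  classical
  set O : Set G := {y | ∃ n ∈ NE ι t, y = n * ι a12 * n⁻¹} with hO
  have o1 : ∀ n ∈ NE ι t, ∀ y ∈ O, n * y * n⁻¹ ∈ O := by
    rintro n hn _ ⟨m, hm, rfl⟩
    exact ⟨n * m, mul_mem hn hm, by group⟩
  have o2 : ∀ n ∈ NE ι t, ∀ y, n * y * n⁻¹ ∈ O ↔ y ∈ O := fun n hn y =>
    ⟨fun k => by simpa [mul_assoc] using o1 _ (inv_mem hn) _ k, o1 n hn y⟩
  have o8 : ι (ac 8) ∈ O := ⟨1, one_mem _, by simp [a12_ac]⟩
  have o0 : ι (ac 0) ∉ O := by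
    rintro ⟨m, -, e⟩
    rw [ac_zero, map_one, eq_comm, conj_eq_one_iff, ← map_one ι] at e
    exact absurd (ac_inj (c := 8) (d := 0) (by omega) (by omega) (h.inj e)) (by omega)
  set b := ob (decide (ι (ac 1) ∈ O)) (decide (ι (ac 3) ∈ O)) (decide (ι (ac 7) ∈ O)) with hb
  have o3 : ∀ c < 64, ι (ac c) ∈ O ↔ b c = true := fun c c64 => by
    obtain ⟨p, hp, e⟩ := orb c64
    rw [← o2 _ (h.P3_NE hp), ← map_inv, ← map_mul, ← map_mul, e, hb, ob]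
    have := rep_mem c c64
    simp only [List.mem_cons, List.not_mem_nil, or_false] at this
    rcases this with r | r | r | r | r <;> rw [r] <;> simp [o8, o0]
  have o4 : ∀ y ∈ O, ∃ c < 64, y = ι (ac c) := by
    rintro _ ⟨m, hm, rfl⟩
    exact cj_a12 h nl hc hm
  have inj : ∀ c < 64, ∀ d < 64, ι (ac c) = ι (ac d) → c = d := fun c hc d hd e =>
    ac_inj hc hd (h.inj e)
  have o5 : O.ncard = cnt b := ncard_eq inj fun y => ⟨fun hy => by
    obtain ⟨c, hc, rfl⟩ := o4 y hy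
    exact ⟨c, hc, (o3 c hc).1 hy, rfl⟩, by
    rintro ⟨c, hc, e, rfl⟩
    exact (o3 c hc).2 e⟩
  have o6 : ∀ o < 64, {y | y ∈ O ∧ y * ι (ac o) ∈ O}.ncard = cnt fun c => b c && b (c ^^^ o) :=
    fun o ho => ncard_eq inj fun y => ⟨fun hy => by
      obtain ⟨c, hc, rfl⟩ := o4 y hy.1
      have := hy.2
      rw [← map_mul, ac_mul hc ho, o3 _ (xor_lt hc ho)] at this
      exact ⟨c, hc, by rw [(o3 c hc).1 hy.1, this]; rfl, rfl⟩, by
      rintro ⟨c, hc, e, rfl⟩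
      rw [Bool.and_eq_true] at e
      exact ⟨(o3 c hc).2 e.1, by rw [← map_mul, ac_mul hc ho, o3 _ (xor_lt hc ho)]; exact e.2⟩⟩
  obtain ⟨j, hj⟩ := card_NE h nl tr hc
  have o7 : cnt b ∣ 2 ^ j * Nat.card P3 :=
    o5 ▸ (Dvd.intro _ (H93.GT.ncard_cls (NE ι t) (ι a12))).trans hj
  have o9 : ∀ c < 64, b c = true → c % 8 = 0 := by
    refine (key _ _ _ fun o ho hb => ?_).resolve_right ?_
    · have o64 : o < 64 := by
        simp only [List.mem_cons, List.not_mem_nil, or_false] at ho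
        omega
      obtain ⟨m, hm, e⟩ := (o3 o o64).2 hb
      rw [← o6 o o64, ← o6 8 (by omega), ← Set.ncard_image_of_injective
        {y | y ∈ O ∧ y * ι (ac 8) ∈ O} (MulAut.conj m).injective]
      congr 1
      ext y
      refine ⟨fun hy => ⟨m⁻¹ * y * m⁻¹⁻¹, ⟨o1 _ (inv_mem hm) _ hy.1, ?_⟩, by simp [mul_assoc]⟩, ?_⟩
      · have := o1 _ (inv_mem hm) _ hy.2
        rw [e] at this
        convert this using 1
        rw [a12_ac]
        group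
      · rintro ⟨y, hy, rfl⟩
        refine ⟨o1 _ hm _ hy.1, ?_⟩
        rw [e, MulAut.conj_apply, conj_mul]
        exact o1 _ hm _ hy.2
    · rintro (e | e)
      · exact k.d.n5 ((Nat.Coprime.pow_right j (by decide)).dvd_of_dvd_mul_left (e.trans o7))
      · exact k.d.n9 ((Nat.Coprime.pow_right j (by decide)).dvd_of_dvd_mul_left (e.trans o7))
  obtain ⟨x, hx, rfl⟩ := Lam_par.1 ha
  by_cases x0 : x = 0
  · exact ⟨0, by omega, by simp [x0, ac_zero]⟩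
  have k1 : ι (ac (8 * x)) ∈ O := by
    obtain ⟨p, hp, e⟩ := orb (c := 8 * x) (by omega)
    rw [← o2 _ (h.P3_NE hp), ← map_inv, ← map_mul, ← map_mul, e, rep, if_neg (by omega),
      if_pos (by omega)]
    exact o8
  have k2 := o1 n hn _ k1
  obtain ⟨c, c64, e⟩ := o4 _ k2
  have := o9 c c64 ((o3 c c64).1 (e ▸ k2))
  exact ⟨c / 8, by omega, by rw [e]; congr 2; omega⟩

omit h nl in
theorem base : BaseStmt.{u} := by
  intro k G _ _ ι t h tr nl hc a ha hd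
  obtain ⟨n, hn, e⟩ := tr _ (h.mem_E3.2 ⟨a, ha, Or.inr rfl⟩) hd
  obtain ⟨x, hx, e1⟩ := cj_Lam h nl k tr hc (inv_mem hn) a12_Lam
  obtain ⟨y, hy, e2⟩ := cj_Lam h nl k tr hc (inv_mem hn) a13_Lam
  obtain ⟨z, hz, e3⟩ := cj_Lam h nl k tr hc (inv_mem hn) a23_Lam
  have e0 : n⁻¹ * ι (ac 0) * n⁻¹⁻¹ = ι (ac (8 * 0)) := by simp [ac_zero]
  have e4 : n⁻¹ * ι (ac 24) * n⁻¹⁻¹ = ι (ac (8 * (x ^^^ y))) := by
    have k1 : ∀ c < 8, ∀ d < 8, 8 * (c ^^^ d) = 8 * c ^^^ 8 * d := by decide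
    rw [k1 x hx y hy, ← ac_mul (by omega) (by omega), map_mul, ← e1, ← e2, conj_mul, ← map_mul,
      a12_ac, a13_ac, ac_mul (by omega) (by omega)]
    rfl
  have inj : ∀ {c d x y : ℕ}, n⁻¹ * ι (ac c) * n⁻¹⁻¹ = ι (ac (8 * x)) →
      n⁻¹ * ι (ac d) * n⁻¹⁻¹ = ι (ac (8 * y)) → c < 64 ∧ d < 64 ∧ c ≠ d → x ≠ y := by
    rintro c d x _ k1 k2 k3 rfl
    exact k3.2.2 (ac_inj k3.1 k3.2.1 (h.inj (mul_left_cancel (mul_right_cancel
      (k1.trans k2.symm)))))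
  obtain ⟨p, hp, p1, p2, p3⟩ := glL (x := x) (y := y) (z := z) ⟨hx, hy, hz,
    inj (c := 8) e1 e0 (by decide), inj (c := 16) e2 e0 (by decide),
    inj (c := 16) (d := 8) e2 e1 (by decide), inj (c := 32) e3 e0 (by decide),
    inj (c := 32) (d := 8) e3 e1 (by decide), inj (c := 32) (d := 16) e3 e2 (by decide),
    inj (c := 32) e3 e4 (by decide)⟩
  have k1 : ∀ {a b : Sp}, n⁻¹ * ι a * n⁻¹⁻¹ = ι b → p * a * p⁻¹ = b →
      a ∈ (centralizer {n * ι p}).comap ι := fun {a b} k2 k3 => by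
    rw [← k3, map_mul, map_mul, map_inv] at k2
    refine mem_centralizer_singleton_iff.2 ?_
    calc ι a * (n * ι p) = n * (n⁻¹ * ι a * n⁻¹⁻¹) * ι p := by group
      _ = n * ι p * ι a := by rw [k2]; group
  have k2 : Lam ≤ (centralizer {n * ι p}).comap ι := (closure_le _).2 (by
    rintro _ (rfl | rfl | rfl)
    exacts [k1 e1 p1, k1 e2 p2, k1 e3 p3])
  refine ⟨n * ι p, mem_Nh.2 ⟨mul_mem hn (h.P3_NE hp), fun b hb =>
    (mem_centralizer_singleton_iff.1 (k2 hb)).symm⟩, ?_⟩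
  rw [← e]
  conv_rhs => rw [← h.conj_t p]
  group

end Cfsg.Agent.H60.S6Base
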