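import Cfsg.Agent.H21.DSDefs

/-!
# DS, piece CORE: characters above a pair of Glauberman correspondents
-/

set_option autoImplicit false

namespace Cfsg.Agent.H60.DsCore

open Cfsg Cfsg.Agent.H22 Cfsg.Agent.H21.DS

universe u

theorem exists_equiv {Γ G : Type u} [Group Γ] [Group G] (π : Γ →* G) (K : Subgroup Γ)
    (N : Subgroup G) (h1 : ∀ x ∈ K, π x ∈ N) (h2 : ∀ x ∈ K, π x = 1 → x = 1)
    (h3 : ∀ n ∈ N, ∃ x ∈ K, π x = n) : ∃ e : K ≃* N, ∀ x, (e x : G) = π x := by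
  let f : K →* N := (π.comp K.subtype).codRestrict N (fun x => h1 x x.2)
  have hf : Function.Bijective f := by
    constructor
    · rw [injective_iff_map_eq_one]
      intro x hx
      exact Subtype.ext (h2 x x.2 (congrArg Subtype.val hx))
    · intro n
      obtain ⟨x, hx, h⟩ := h3 n n.2
      exact ⟨⟨x, hx⟩, Subtype.ext h⟩
  exact ⟨MulEquiv.ofBijective f hf, fun _ => rfl⟩

theorem tri' (h3 : TriStmt.{u}) (p : ℕ) [Fact p.Prime] (M : Ideal AlgInt) (hM : IsPModular p M)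
    {G Γ Q : Type u} [Group G] [Group Γ] [Group Q] [Finite G] [Finite Γ] (π : Γ →* G)
    (q : Γ →* Q) (hπ : Function.Surjective π) (hq : Function.Surjective q)
    (hc : π.ker ≤ Subgroup.center Γ) (hp : ¬ p ∣ Nat.card π.ker) (K : Subgroup Γ)
    (hK : q.ker = K) (N : Subgroup G) (hN : ¬ p ∣ Nat.card N) (e : K ≃* N)
    (he : ∀ x, (e x : G) = π x) (χ : IrrCharacter Γ) (θ : IrrCharacter N)
    (hχ : ∀ x : K, χ.1 x = θ.1 (e x)) :
    PI p M {β : IrrCharacter Q | ∀ z ∈ π.ker, β.1 (q z) * χ.1 z = β.1 1 * χ.1 1}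
      (above N {θ}) := by
  subst hK
  have hf : (fun n : q.ker => χ.1 n) = fun n => θ.1 (e n) := funext hχ
  have h := h3 p M hM G Γ Q π q hπ hq hc hp (by rwa [Nat.card_congr e.toEquiv]) χ
    (by rw [hf]; exact H11.isIrrCharacter_comp_mulEquiv θ.2 e)
  convert h using 1
  ext ξ
  have := Fintype.ofFinite N
  have := Fintype.ofFinite q.ker
  rw [mem_above_singleton, Set.mem_ofPred_eq, over_iff, over_iff, hf,
    ← H11.classInner_comp_mulEquiv e]
  simp only [he]

section Grp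

variable {Γ G : Type u} [Group Γ] [Group G] (π : Γ →* G) (P : Subgroup G)

theorem pow_card_mem {x : Γ} (hx : π x ∈ P) : x ^ Nat.card P ∈ π.ker := by
  rw [MonoidHom.mem_ker, map_pow]
  exact congrArg Subtype.val (pow_card_eq_one' (x := (⟨π x, hx⟩ : P)))

theorem comm_of_mem (hc : π.ker ≤ Subgroup.center Γ)
    (hco : (Nat.card P).Coprime (Nat.card π.ker)) (hP : ∀ x ∈ P, ∀ y ∈ P, x * y = y * x)
    {x y : Γ} (hx : π x ∈ P) (hy : π y ∈ P) : x * y = y * x := by
  have hk : x * y * x⁻¹ * y⁻¹ ∈ π.ker := by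
    rw [MonoidHom.mem_ker, map_mul, map_mul, map_mul, hP _ hx _ hy]
    simp
  obtain ⟨c, hcdef⟩ : ∃ c, c = x * y * x⁻¹ * y⁻¹ := ⟨_, rfl⟩
  rw [← hcdef] at hk
  have hcz : ∀ g, g * c = c * g := fun g => Subgroup.mem_center_iff.1 (hc hk) g
  have h1 : x * y = c * y * x := by rw [hcdef]; group
  have h2 : ∀ k : ℕ, x ^ k * y = c ^ k * y * x ^ k := by
    intro k
    induction k with
    | zero => simp
    | succ k ih =>
      have hck : x * c ^ k = c ^ k * x := (Commute.pow_right (hcz x) k).eq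
      calc x ^ (k + 1) * y = x * (x ^ k * y) := by rw [pow_succ', mul_assoc]
        _ = (x * c ^ k) * y * x ^ k := by rw [ih]; simp only [mul_assoc]
        _ = c ^ k * (x * y) * x ^ k := by rw [hck]; simp only [mul_assoc]
        _ = c ^ (k + 1) * y * x ^ (k + 1) := by
          rw [h1, pow_succ, pow_succ']; simp only [mul_assoc]
  have h3 : c ^ Nat.card P = 1 := by
    have h4 := h2 (Nat.card P)
    rw [← Subgroup.mem_center_iff.1 (hc (pow_card_mem π P hx)) y, mul_assoc] at h4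
    exact (mul_eq_right.1 h4.symm)
  have h4 : c ^ Nat.card π.ker = 1 :=
    congrArg Subtype.val (pow_card_eq_one' (x := (⟨c, hk⟩ : π.ker)))
  have h5 : c = 1 := by
    have := pow_gcd_eq_one.2 ⟨h3, h4⟩
    rwa [hco, pow_one] at this
  rw [h1, h5, one_mul]

theorem exists_lift [Finite G] (hπ : Function.Surjective π) (hc : π.ker ≤ Subgroup.center Γ)
    (hco : (Nat.card P).Coprime (Nat.card π.ker)) (hP : ∀ x ∈ P, ∀ y ∈ P, x * y = y * x) :
    ∃ A : Subgroup Γ, (∀ b, b ∈ A ↔ π b ∈ P ∧ b ^ Nat.card P = 1) ∧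
      ∀ y ∈ P, ∃ b ∈ A, π b = y := by
  refine ⟨{ carrier := {b | π b ∈ P ∧ b ^ Nat.card P = 1}
            one_mem' := ⟨by simp, one_pow _⟩
            mul_mem' := ?_
            inv_mem' := ?_ }, fun _ => Iff.rfl, ?_⟩
  · intro a b ha hb
    refine ⟨by rw [map_mul]; exact P.mul_mem ha.1 hb.1, ?_⟩
    rw [Commute.mul_pow (comm_of_mem π P hc hco hP ha.1 hb.1), ha.2, hb.2, one_mul]
  · intro a ha
    exact ⟨by rw [map_inv]; exact P.inv_mem ha.1, by rw [inv_pow, ha.2, inv_one]⟩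
  · intro y hy
    obtain ⟨x, rfl⟩ := hπ y
    obtain ⟨k, hk⟩ : ∃ k : ℕ, Nat.card π.ker * k ≡ 1 [MOD Nat.card P] :=
      ⟨(Nat.card π.ker) ^ (Nat.totient (Nat.card P) - 1), by
        rw [← pow_succ', Nat.sub_add_cancel (Nat.totient_pos.2 Nat.card_pos)]
        exact Nat.ModEq.pow_totient hco.symm⟩
    refine ⟨x ^ (Nat.card π.ker * k), ⟨by rw [map_pow]; exact P.pow_mem hy _, ?_⟩, ?_⟩
    · rw [← pow_mul, mul_comm, pow_mul, pow_mul]
      have : (x ^ Nat.card P) ^ Nat.card π.ker = 1 :=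
        congrArg Subtype.val (pow_card_eq_one' (x := (⟨_, pow_card_mem π P hy⟩ : π.ker)))
      rw [this, one_pow]
    · rw [map_pow]
      have h1 : (π x) ^ Nat.card P = 1 :=
        congrArg Subtype.val (pow_card_eq_one' (x := (⟨π x, hy⟩ : P)))
      rw [pow_eq_pow_of_modEq hk h1, pow_one]

end Grp

theorem core (h1 : CextStmt.{u}) (h2 : ExtStmt.{u}) (h3 : TriStmt.{u}) (h4 : PikStmt.{u}) :
    CoreStmt.{u} := by
  intro p hp M hM G _ _ N P _ hN hP hPc hsup θ hθ _ φ hφ m hm hin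
  obtain ⟨Γ, _, _, π, s, χ, hπ, hc, hs, hsc, hχ, hpk⟩ := h1 G N θ hθ
  have hZ : ¬ p ∣ Nat.card π.ker := fun h => hN (hpk p hp.out h)
  have hnorm : s.range.Normal := ⟨by
    rintro _ ⟨n, rfl⟩ x
    exact ⟨_, (hsc x n).symm⟩⟩
  obtain ⟨a, ha⟩ := IsPGroup.iff_card.1 hP
  have hco : (Nat.card P).Coprime (Nat.card π.ker) := by
    rw [ha]
    exact Nat.Coprime.pow_left _ ((Nat.Prime.coprime_iff_not_dvd hp.out).2 hZ)
  obtain ⟨A, hA, hAP⟩ := exists_lift π P hπ hc hco hPc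
  have k1 : ∀ x ∈ s.range, π x ∈ N := by
    rintro _ ⟨n, rfl⟩
    rw [hs]; exact n.2
  have k2 : ∀ x ∈ s.range, π x = 1 → x = 1 := by
    rintro _ ⟨n, rfl⟩ h
    rw [hs] at h
    rw [show n = 1 from Subtype.ext h, map_one]
  obtain ⟨e, he⟩ := exists_equiv π s.range N k1 k2
    (fun n hn => ⟨s ⟨n, hn⟩, ⟨_, rfl⟩, hs _⟩)
  have hχe : ∀ x : s.range, χ.1 x = θ.1 (e x) := by
    rintro ⟨_, n, rfl⟩
    rw [hχ]
    exact congrArg _ (Subtype.ext ((he _).trans (hs n)).symm)
  let H : Subgroup G := H18.Nz P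
  let H' : Subgroup Γ := H.comap π
  let π' : H' →* H := π.subgroupComap H
  have hπ'v : ∀ x : H', (π' x : G) = π x := fun _ => rfl
  obtain ⟨e', he'⟩ := exists_equiv π' (s.range.subgroupOf H') (N.subgroupOf H)
    (fun x hx => k1 x hx) (fun x hx h => Subtype.ext (k2 x hx (congrArg Subtype.val h)))
    (fun n hn => ⟨⟨s ⟨n, hn⟩, by
      change π (s _) ∈ H
      rw [hs]; exact n.2⟩, ⟨_, rfl⟩, Subtype.ext (hs _)⟩)
  have hN0 : ¬ p ∣ Nat.card s.range := by rwa [Nat.card_congr e.toEquiv]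
  have hAp : IsPGroup p A := fun b => ⟨a, Subtype.ext (by
    rw [← ha]; exact ((hA b).1 b.2).2)⟩
  have hconj : ∀ h ∈ H', ∀ b ∈ A, h * b * h⁻¹ ∈ A := by
    intro h hh b hb
    rw [hA] at hb ⊢
    refine ⟨?_, by rw [conj_pow, hb.2]; simp⟩
    rw [map_mul, map_mul, map_inv]
    exact (Subgroup.mem_normalizer_iff.1 (show π h ∈ H18.Nz P from hh) _).1 hb.1
  have hHA : H' ≤ Subgroup.normalizer (A : Set Γ) := by
    intro h hh
    rw [Subgroup.mem_normalizer_iff]
    intro b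
    refine ⟨hconj h hh b, fun hb => ?_⟩
    have := hconj h⁻¹ (H'.inv_mem hh) _ hb
    simpa [mul_assoc] using this
  have hinf : s.range ⊓ H' = s.range ⊓ Subgroup.centralizer (A : Set Γ) := by
    apply le_antisymm
    · rintro x ⟨hx, hxH⟩
      refine ⟨hx, Subgroup.mem_centralizer_iff.2 ?_⟩
      intro b hb
      have c1 : x * b * x⁻¹ * b⁻¹ ∈ A := A.mul_mem (hconj x hxH b hb) (A.inv_mem hb)
      have c2 : x * b * x⁻¹ * b⁻¹ ∈ s.range := by
        have := s.range.mul_mem hx (hnorm.conj_mem _ (s.range.inv_mem hx) b)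
        simpa only [mul_assoc] using this
      have c3 : (x * b * x⁻¹ * b⁻¹) ^ Nat.card s.range = 1 :=
        congrArg Subtype.val (pow_card_eq_one' (x := (⟨_, c2⟩ : s.range)))
      have c4 := ((hA _).1 c1).2
      have c5 : (Nat.card P).Coprime (Nat.card s.range) := by
        rw [ha]
        exact Nat.Coprime.pow_left _ ((Nat.Prime.coprime_iff_not_dvd hp.out).2 hN0)
      have c6 := pow_gcd_eq_one.2 ⟨c4, c3⟩
      rw [c5, pow_one] at c6
      calc b * x = (x * b * x⁻¹ * b⁻¹) * (b * x) := by rw [c6, one_mul]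
        _ = x * b := by group
    · rintro x ⟨hx, hxC⟩
      refine ⟨hx, ?_⟩
      change π x ∈ H18.Nz P
      apply Subgroup.centralizer_le_normalizer
      rw [Subgroup.mem_centralizer_iff]
      intro y hy
      obtain ⟨b, hb, rfl⟩ := hAP y hy
      rw [← map_mul, ← map_mul, Subgroup.mem_centralizer_iff.1 hxC b hb]
  have hirr : IsIrrCharacter s.range (fun n : s.range => χ.1 n) := by
    rw [show (fun n : s.range => χ.1 n) = fun n => θ.1 (e n) from funext hχe]
    exact H11.isIrrCharacter_comp_mulEquiv θ.2 e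
  have := Fintype.ofFinite (s.range.subgroupOf H')
  obtain ⟨ψ, hψ1, hψ2⟩ := h2 p M hM Γ s.range A H' π.ker hN0 hAp
    (fun x hx y hy => comm_of_mem π P hc hco hPc ((hA x).1 hx).1 ((hA y).1 hy).1) hHA hinf hc hZ
    χ hirr (irrMap e'.symm φ) (by
      intro h
      ext c
      rw [cjIrr_apply, irrMap_symm_apply, irrMap_symm_apply]
      conv_rhs => rw [← hφ (π' h), cjIrr_apply]
      refine congrArg _ (Subtype.ext ?_)
      rw [he']
      simp only [map_mul, map_inv, he']) m hm (by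
      rw [← hin, ← H11.classInner_comp_mulEquiv e']
      congr 1
      funext c
      rw [hχe ⟨c.1.1, c.2⟩]
      refine congrArg _ (Subtype.ext ?_)
      rw [he]
      exact (congrArg Subtype.val (he' c)).symm)
  let q : Γ →* Γ ⧸ s.range := QuotientGroup.mk' s.range
  have hqk : q.ker = s.range := QuotientGroup.ker_mk' _
  have t1 := tri' h3 p M hM π q hπ (QuotientGroup.mk'_surjective _) hc hZ s.range hqk N hN e he
    χ θ hχe
  have hq' : Function.Surjective (q.comp H'.subtype) := by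
    intro y
    obtain ⟨x, rfl⟩ := QuotientGroup.mk'_surjective s.range y
    have hx : π x ∈ N ⊔ H18.Nz P := by rw [hsup]; trivial
    rw [← SetLike.mem_coe, Subgroup.normal_mul] at hx
    obtain ⟨n, hn, h, hh, hx⟩ := hx
    refine ⟨⟨(s ⟨n, hn⟩)⁻¹ * x, ?_⟩, ?_⟩
    · change π _ ∈ H
      rw [map_mul, map_inv, hs, ← hx]
      simpa using hh
    · change q (_ * x) = q x
      have : q (s ⟨n, hn⟩) = 1 := by
        rw [← MonoidHom.mem_ker, hqk]; exact ⟨_, rfl⟩
      rw [map_mul, map_inv, this, inv_one, one_mul]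
  have hk' : ∀ z : H', z ∈ π'.ker ↔ (z : Γ) ∈ π.ker := fun z => by
    rw [MonoidHom.mem_ker, MonoidHom.mem_ker, ← hπ'v, OneMemClass.coe_eq_one]
  have hZ' : ¬ p ∣ Nat.card π'.ker := by
    intro h
    refine hZ (h.trans ?_)
    refine Subgroup.card_dvd_of_injective
      ((H'.subtype.comp π'.ker.subtype).codRestrict π.ker (fun z => (hk' _).1 z.2)) ?_
    intro x y hxy
    exact Subtype.ext (Subtype.ext (Subtype.ext_iff.1 hxy :))
  have hN' : ¬ p ∣ Nat.card (N.subgroupOf H) := by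
    intro h
    refine hN (h.trans ?_)
    refine Subgroup.card_dvd_of_injective
      ((H.subtype.comp (N.subgroupOf H).subtype).codRestrict N (fun z => z.2)) ?_
    intro x y hxy
    exact Subtype.ext (Subtype.ext (Subtype.ext_iff.1 hxy :))
  have t2 := tri' h3 p M hM π' (q.comp H'.subtype)
    (π.subgroupComap_surjective_of_surjective H hπ) hq'
    (fun z hz => Subgroup.mem_center_iff.2 fun g =>
      Subtype.ext (Subgroup.mem_center_iff.1 (hc ((hk' z).1 hz)) g)) hZ'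
    (s.range.subgroupOf H') (by rw [← MonoidHom.comap_ker, hqk]; rfl) (N.subgroupOf H) hN' e' he'
    ψ φ hψ1
  have hset : {β : IrrCharacter (Γ ⧸ s.range) |
      ∀ z ∈ π'.ker, β.1 ((q.comp H'.subtype) z) * ψ.1 z = β.1 1 * ψ.1 1} =
      {β : IrrCharacter (Γ ⧸ s.range) | ∀ z ∈ π.ker, β.1 (q z) * χ.1 z = β.1 1 * χ.1 1} := by
    ext β
    have n1 := H17.irr_one_ne_zero χ
    have n2 := H17.irr_one_ne_zero ψ
    constructor
    · intro h z hz
      have hzH : z ∈ H' := by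
        change π z ∈ H
        rw [MonoidHom.mem_ker.1 hz]; exact H.one_mem
      have a1 : β.1 (q z) * ψ.1 ⟨z, hzH⟩ = β.1 1 * ψ.1 1 := h ⟨z, hzH⟩ ((hk' _).2 hz)
      have a2 : ψ.1 ⟨z, hzH⟩ * χ.1 1 = ψ.1 1 * χ.1 z := hψ2 ⟨z, hzH⟩ hz
      apply mul_left_cancel₀ n2
      linear_combination χ.1 1 * a1 - β.1 (q z) * a2
    · intro h z hz
      have a1 : β.1 (q z) * χ.1 z = β.1 1 * χ.1 1 := h z ((hk' _).1 hz)
      have a2 := hψ2 z ((hk' _).1 hz)
      change β.1 (q z) * ψ.1 z = β.1 1 * ψ.1 1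
      apply mul_left_cancel₀ n1
      linear_combination ψ.1 1 * a1 + β.1 (q z) * a2
  rw [hset] at t2
  exact h4.trans p M hM (h4.symm p M t2) t1

end Cfsg.Agent.H60.DsCore
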