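import Mathlib
import Cfsg.Agent.H60.Homog

/-!
Wielandt's descent: a `k`-homogeneous group is `(k-1)`-homogeneous when the degree is large.
-/

set_option autoImplicit false

namespace Cfsg.Agent.H60

open MulAction
open scoped Pointwise

theorem not_dvd_choose_of_pow_dvd {p e k : ℕ} (hp : p.Prime) (hk : p ^ e ∣ k) :
    ¬ p ∣ (k + (p ^ e - 1)).choose (p ^ e - 1) := by
  have hpos : 0 < (k + (p ^ e - 1)).choose (p ^ e - 1) := Nat.choose_pos (by omega)
  intro hdvd
  have h1 : 1 ≤ ((k + (p ^ e - 1)).choose (p ^ e - 1)).factorization p :=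
    (hp.dvd_iff_one_le_factorization hpos.ne').1 hdvd
  rw [Nat.factorization_choose' hp (Nat.lt_add_one _), Finset.one_le_card] at h1
  obtain ⟨i, hi⟩ := h1
  have hi2 := (Finset.mem_filter.1 hi).2
  have hpe : 0 < p ^ e := pow_pos hp.pos _
  have hpi : 0 < p ^ i := pow_pos hp.pos _
  rcases le_or_gt i e with hie | hie
  · have : k % p ^ i = 0 := Nat.mod_eq_zero_of_dvd ((pow_dvd_pow p hie).trans hk)
    have := Nat.mod_lt (p ^ e - 1) hpi
    omega
  · have hd : p ^ e ∣ p ^ i := pow_dvd_pow p hie.le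
    have h2 : p ^ e ∣ k % p ^ i := (Nat.dvd_mod_iff hd).2 hk
    have h3 := Nat.mod_lt k hpi
    have h4 : p ^ e ∣ p ^ i - k % p ^ i := Nat.dvd_sub hd h2
    have h5 := Nat.le_of_dvd (by omega) h4
    have h6 := Nat.mod_le (p ^ e - 1) (p ^ i)
    omega

variable {G α : Type*} [Group G] [MulAction G α]

/-- A `k`-homogeneous action with `k + q - 1 ≤ n` for each prime power `q ∣ k` is
`(k-1)`-homogeneous. -/
theorem homog_pred [Fintype α] [DecidableEq α] {k : ℕ} (hk : 2 ≤ k)
    (hG : IsPretransitive G (Set.powersetCard α k))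
    (hq : ∀ q : ℕ, IsPrimePow q → q ∣ k → k + q - 1 ≤ Fintype.card α) :
    IsPretransitive G (Set.powersetCard α (k - 1)) := by
  classical
  rw [isPretransitive_powersetCard_iff] at hG ⊢
  have hkn : k ≤ Fintype.card α := by
    have h1 := hq k.minFac (Nat.minFac_prime (by omega)).isPrimePow (Nat.minFac_dvd k)
    have h2 := (Nat.minFac_prime (show k ≠ 1 by omega)).pos
    omega
  intro T₀ T hT₀ hT
  let c : Finset α → ℕ := fun K =>
    ((K.powersetCard (k - 1)).filter (fun S => ∃ g : G, g • T₀ = S)).card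
  have hle : ∀ (g : G) (K : Finset α), c K ≤ c (g • K) := by
    intro g K
    apply Finset.card_le_card_of_injOn (fun S => g • S)
    · intro S hS
      simp only [Finset.coe_filter, Finset.mem_powersetCard, Set.mem_ofPred_eq] at hS ⊢
      obtain ⟨⟨h1, h2⟩, g', hg'⟩ := hS
      exact ⟨⟨Finset.smul_finset_subset_smul_finset h1, by rw [Finset.card_smul_finset, h2]⟩,
        g * g', by rw [mul_smul, hg']⟩
    · intro S _ S' _ h
      exact MulAction.injective g h
  have hconst : ∀ K K' : Finset α, K.card = k → K'.card = k → c K = c K' := by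
    intro K K' hK hK'
    obtain ⟨g, hg⟩ := hG K K' hK hK'
    obtain ⟨g', hg'⟩ := hG K' K hK' hK
    exact le_antisymm (hg ▸ hle g K) (hg' ▸ hle g' K')
  obtain ⟨K₀, hK₀, hK₀c⟩ := Finset.exists_superset_card_eq (s := T₀) (n := k) (by omega) hkn
  have hpos : 0 < c K₀ := Finset.card_pos.2 ⟨T₀, Finset.mem_filter.2
    ⟨Finset.mem_powersetCard.2 ⟨hK₀, hT₀⟩, 1, one_smul _ _⟩⟩
  have hdvd : k ∣ c K₀ := by
    rw [Nat.dvd_iff_prime_pow_dvd_dvd]
    intro p e hp hpe
    rcases Nat.eq_zero_or_pos e with rfl | he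
    · simp
    have hpp : IsPrimePow (p ^ e) := hp.isPrimePow.pow he.ne'
    have hpos' : 0 < p ^ e := pow_pos hp.pos _
    obtain ⟨M, -, hM⟩ := Finset.exists_superset_card_eq (s := (∅ : Finset α))
      (n := k + (p ^ e - 1)) (by simp) (by have := hq _ hpp hpe; omega)
    have hcount := Finset.card_mul_eq_card_mul (fun (S K : Finset α) => S ⊆ K)
      (s := (M.powersetCard (k - 1)).filter (fun S => ∃ g : G, g • T₀ = S))
      (t := M.powersetCard k) (m := p ^ e) (n := c K₀) ?_ ?_
    · rw [Finset.card_powersetCard, hM] at hcount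
      have h1 : p ^ e ∣ (k + (p ^ e - 1)).choose k * c K₀ := hcount ▸ Dvd.intro_left _ rfl
      have h2 : (k + (p ^ e - 1)).choose k = (k + (p ^ e - 1)).choose (p ^ e - 1) :=
        Nat.choose_symm_add
      rw [h2] at h1
      exact (Nat.Coprime.pow_left e
        ((Nat.Prime.coprime_iff_not_dvd hp).2 (not_dvd_choose_of_pow_dvd hp hpe))).dvd_of_dvd_mul_left
          h1
    · intro S hS
      obtain ⟨hS1, -⟩ := Finset.mem_filter.1 hS
      obtain ⟨h1, h2⟩ := Finset.mem_powersetCard.1 hS1
      rw [Finset.bipartiteAbove, Finset.card_filter_powersetCard_subset S M k h1 (by omega), hM, h2,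
        show k - (k - 1) = 1 by omega, Nat.choose_one_right]
      omega
    · intro K hK
      obtain ⟨h1, h2⟩ := Finset.mem_powersetCard.1 hK
      rw [← hconst K K₀ h2 hK₀c, Finset.bipartiteBelow]
      congr 1
      ext S
      simp only [Finset.mem_filter, Finset.mem_powersetCard]
      constructor
      · rintro ⟨⟨⟨-, h4⟩, h5⟩, h6⟩
        exact ⟨⟨h6, h4⟩, h5⟩
      · rintro ⟨⟨h6, h4⟩, h5⟩
        exact ⟨⟨⟨h6.trans h1, h4⟩, h5⟩, h6⟩
  obtain ⟨K, hK, hKc⟩ := Finset.exists_superset_card_eq (s := T) (n := k) (by omega) hkn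
  have hfull : (K.powersetCard (k - 1)).filter (fun S => ∃ g : G, g • T₀ = S) =
      K.powersetCard (k - 1) := by
    apply Finset.eq_of_subset_of_card_le (Finset.filter_subset _ _)
    have h1 := Nat.le_of_dvd hpos hdvd
    rw [hconst K₀ K hK₀c hKc] at h1
    rw [Finset.card_powersetCard, hKc, Nat.choose_symm_of_eq_add (b := 1) (by omega),
      Nat.choose_one_right]
    exact h1
  have hT' : T ∈ K.powersetCard (k - 1) := Finset.mem_powersetCard.2 ⟨hK, hT⟩
  rw [← hfull] at hT'
  exact (Finset.mem_filter.1 hT').2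

/-- A `k`-homogeneous action with `2k ≤ n + 1` is `j`-homogeneous for `1 ≤ j ≤ k`. -/
theorem homog_of_le [Fintype α] [DecidableEq α] {k : ℕ} (hkn : 2 * k ≤ Fintype.card α + 1)
    (hG : IsPretransitive G (Set.powersetCard α k)) {j : ℕ} (hj1 : 1 ≤ j) (hjk : j ≤ k) :
    IsPretransitive G (Set.powersetCard α j) := by
  induction k with
  | zero => omega
  | succ k ih =>
    rcases hjk.eq_or_lt with rfl | hlt
    · exact hG
    · refine ih (by omega) ?_ (by omega)
      exact homog_pred (k := k + 1) (by omega) hG fun q _ hq => by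
        have := Nat.le_of_dvd (by omega) hq
        omega

end Cfsg.Agent.H60
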