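import Mathlib
import Cfsg.Agent.H60.Descent
import Cfsg.Agent.H60.NormalMulti

/-!
A `k`-transitive group, `k ≥ 4`, induces the alternating group on some `(k + 1)`-set.
-/

set_option autoImplicit false

namespace Cfsg.Agent.H60

open MulAction Function

variable {G α : Type*} [Group G] [MulAction G α]

/-- `g` acts on `s` as the transposition of `a` and `b`. -/
def Tr (s : Finset α) (a b : α) (g : G) : Prop :=
  g • a = b ∧ g • b = a ∧ ∀ c ∈ s, c ≠ a → c ≠ b → g • c = c

theorem Tr.symm {s : Finset α} {a b : α} {g : G} (h : Tr s a b g) : Tr s b a g :=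
  ⟨h.2.1, h.1, fun c hc h1 h2 => h.2.2 c hc h2 h1⟩

theorem Tr.mul_fix {s : Finset α} {a b : α} {g g' : G} (h : Tr s a b g) (h' : Tr s a b g') :
    ∀ c ∈ s, (g * g') • c = c := by
  intro c hc
  rw [mul_smul]
  by_cases h1 : c = a
  · rw [h1, h'.1, h.2.1]
  by_cases h2 : c = b
  · rw [h2, h'.2.1, h.1]
  rw [h'.2.2 c hc h1 h2, h.2.2 c hc h1 h2]

theorem Tr.smul_mem {s : Finset α} {a b : α} {g : G} (h : Tr s a b g) (ha : a ∈ s) (hb : b ∈ s) :
    ∀ c ∈ s, g • c ∈ s := by
  intro c hc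
  by_cases h1 : c = a
  · rwa [h1, h.1]
  by_cases h2 : c = b
  · rwa [h2, h.2.1]
  rwa [h.2.2 c hc h1 h2]

theorem smul_notMem_of_mapsTo {s : Finset α} {g : G} (h : ∀ c ∈ s, g • c ∈ s) {x : α}
    (hx : x ∉ s) : g • x ∉ s := by
  classical
  intro hgx
  rw [← smul_finset_eq_of_mapsTo le_rfl h, Finset.smul_mem_smul_finset_iff] at hgx
  exact hx hgx

theorem exists_tr [Finite α] {k : ℕ} (hG : IsMultiplyPretransitive G α k) {s : Finset α}
    (hs : s.card = k) {a b : α} (ha : a ∈ s) (hb : b ∈ s) : ∃ g : G, Tr s a b g := by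
  classical
  obtain ⟨g, hg⟩ := exists_smul_eq_of_injOn hG
    (by rw [← hs, ← Set.ncard_coe_finset]; exact Set.ncard_le_card _) s hs.le (Equiv.swap a b)
    (Equiv.swap a b).injective.injOn
  exact ⟨g, by rw [hg a ha, Equiv.swap_apply_left], by rw [hg b hb, Equiv.swap_apply_right],
    fun c hc h1 h2 => by rw [hg c hc, Equiv.swap_apply_of_ne_of_ne h1 h2]⟩

theorem exists_induce_of_tr {s : Finset α} {m : ℕ} (hs : s.card = m)
    (h : ∀ a ∈ s, ∀ b ∈ s, a ≠ b → ∃ g : G, Tr s a b g) :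
    ∃ x : Fin m ↪ α, Set.range x = s ∧ ∀ σ : Equiv.Perm (Fin m), ∃ g : G, ∀ i, g • x i = x (σ i) := by
  let x : Fin m ↪ α := (s.equivFinOfCardEq hs).symm.toEmbedding.trans (Embedding.subtype _)
  have hx : ∀ i, x i ∈ s := fun i => ((s.equivFinOfCardEq hs).symm i).2
  refine ⟨x, ?_, fun σ => ?_⟩
  · ext y
    exact ⟨fun ⟨i, hi⟩ => hi ▸ hx i, fun hy => ⟨s.equivFinOfCardEq hs ⟨y, hy⟩, by simp [x]⟩⟩
  induction σ using Equiv.Perm.swap_induction_on with
  | one => exact ⟨1, fun i => one_smul _ _⟩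
  | swap_mul f i j hij ih =>
    obtain ⟨g, hg⟩ := ih
    obtain ⟨u, hu⟩ := h _ (hx i) _ (hx j) (x.injective.ne hij)
    refine ⟨u * g, fun l => ?_⟩
    rw [mul_smul, hg, Equiv.Perm.mul_apply]
    by_cases h1 : f l = i
    · rw [h1, hu.1, Equiv.swap_apply_left]
    by_cases h2 : f l = j
    · rw [h2, hu.2.1, Equiv.swap_apply_right]
    rw [Equiv.swap_apply_of_ne_of_ne h1 h2, hu.2.2 _ (hx _) (x.injective.ne h1) (x.injective.ne h2)]

/-- If `k`-point stabilisers have even order but no involution fixes `k + 1` points, every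
transposition on every `(k + 1)`-set is induced. -/
theorem exists_tr_of_even [Finite α] [Finite G] {k : ℕ} (hk : 2 ≤ k)
    (hev : ∀ s : Finset α, s.card = k → Even (Nat.card (fixingSubgroup G (s : Set α))))
    (hinv : ∀ t : G, t * t = 1 → k < (fixedBy α t).ncard → t = 1) {Δ : Finset α}
    (hΔ : Δ.card = k + 1) {a b : α} (ha : a ∈ Δ) (hb : b ∈ Δ) (hab : a ≠ b) :
    ∃ g : G, Tr Δ a b g := by
  classical
  have hfix : ∀ (t : G) (s : Finset α), s.card = k → t * t = 1 → t ≠ 1 →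
      t ∈ fixingSubgroup G (s : Set α) → ∀ x, t • x = x ↔ x ∈ s := by
    intro t s hs ht ht1 hts x
    have : (s : Set α) = fixedBy α t := Set.eq_of_subset_of_ncard_le
      ((mem_fixingSubgroup_iff G).1 hts) (by
        rw [Set.ncard_coe_finset, hs]
        exact not_lt.1 fun h => ht1 (hinv t ht h))
    rw [← mem_fixedBy, ← this, Finset.mem_coe]
  obtain ⟨c, hc, hc'⟩ := Finset.exists_mem_notMem_of_card_lt_card (s := {a, b}) (t := Δ)
    (by rw [Finset.card_pair hab]; omega)
  simp only [Finset.mem_insert, Finset.mem_singleton, not_or] at hc'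
  have hs : (Δ.erase c).card = k := by rw [Finset.card_erase_of_mem hc]; omega
  obtain ⟨t, ht, ht1, htt, -⟩ := exists_invol_commute (hev _ hs) (mul_one 1) (by simp)
  have hft := hfix t _ hs htt ht1 ht
  have has : a ∈ Δ.erase c := Finset.mem_erase.2 ⟨Ne.symm hc'.1, ha⟩
  have hbs : b ∈ Δ.erase c := Finset.mem_erase.2 ⟨Ne.symm hc'.2, hb⟩
  have hd : t • c ≠ c := fun h => by simpa using (hft c).1 h
  have hd' : t • c ∉ Δ.erase c := fun h => hd (smul_left_cancel t ((hft _).2 h))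
  have hs' : (insert c (insert (t • c) (((Δ.erase c).erase a).erase b))).card = k := by
    rw [Finset.card_insert_of_notMem, Finset.card_insert_of_notMem,
      Finset.card_erase_of_mem (Finset.mem_erase.2 ⟨hab.symm, hbs⟩), Finset.card_erase_of_mem has]
    · omega
    · exact fun h => hd' (Finset.mem_of_mem_erase (Finset.mem_of_mem_erase h))
    · simp [hd.symm]
  obtain ⟨u, hu, hu1, huu, htu⟩ := exists_invol_commute (hev _ hs') htt fun h hh => by
    rw [mem_fixingSubgroup_iff] at hh ⊢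
    intro y hy
    have : t • y ∈ insert c (insert (t • c) (((Δ.erase c).erase a).erase b)) := by
      rcases Finset.mem_insert.1 hy with rfl | hy'
      · simp
      rcases Finset.mem_insert.1 hy' with rfl | hy'
      · rw [invol_smul_smul htt]; simp
      · rwa [(hft y).2 (Finset.mem_of_mem_erase (Finset.mem_of_mem_erase hy'))]
    rw [mul_smul, mul_smul, hh _ this, invol_smul_smul htt]
  have hfu := hfix u _ hs' huu hu1 hu
  have h1 : u • a = b := by
    by_contra h1
    have h2 : u • a ∈ Δ.erase c := (hft _).1 (by rw [← mul_smul, htu, mul_smul, (hft a).2 has])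
    have h3 : u • a ≠ a := fun h => by
      have := (hfu a).1 h
      simp only [Finset.mem_insert, Finset.mem_erase, ne_eq, not_true_eq_false, false_and,
        and_false, or_false] at this
      rcases this with h | h
      exacts [hc'.1 h.symm, hd' (h ▸ has)]
    exact h3 (smul_left_cancel u ((hfu _).2 (Finset.mem_insert_of_mem (Finset.mem_insert_of_mem
      (Finset.mem_erase.2 ⟨h1, Finset.mem_erase.2 ⟨h3, h2⟩⟩)))))
  refine ⟨u, h1, by rw [← h1, invol_smul_smul huu], fun y hy h2 h3 => (hfu y).2 ?_⟩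
  by_cases h4 : y = c
  · simp [h4]
  · simp [h2, h3, h4, hy]

/-- A sharply `k`-transitive group of degree `k + 7` induces the symmetric group on some
`(k + 1)`-set. -/
theorem exists_tr_of_sharp [Finite α] {k : ℕ} (hk : 3 ≤ k) (hG : IsMultiplyPretransitive G α k)
    (hn : Nat.card α = k + 7)
    (hsh : ∀ (g : G) (s : Finset α), s.card = k → (∀ x ∈ s, g • x = x) → g = 1) :
    ∃ Δ : Finset α, Δ.card = k + 1 ∧ ∀ a ∈ Δ, ∀ b ∈ Δ, a ≠ b → ∃ g : G, Tr Δ a b g := by
  classical
  have hcompl : ∀ s : Finset α, s.card = k → ((s : Set α)ᶜ).ncard = 7 := fun s hs => by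
    rw [Set.ncard_compl, Set.ncard_coe_finset]; omega
  have L2 : ∀ (s : Finset α) (a b : α) (g g' : G), s.card = k → Tr s a b g → Tr s a b g' →
      g * g' = 1 := fun s a b g g' hs h h' => hsh _ s hs (h.mul_fix h')
  have L3 : ∀ (s : Finset α) (a b : α) (g : G), s.card = k → a ∈ s → b ∈ s → a ≠ b → Tr s a b g →
      ∀ w w', w ∉ s → w' ∉ s → g • w = w → g • w' = w' → w = w' := by
    intro s a b g hs ha hb hab h w w' hw hw' h1 h2
    by_contra hne
    have := hsh g (insert w (insert w' ((s.erase a).erase b))) (by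
      rw [Finset.card_insert_of_notMem (by simp [hne, hw]),
        Finset.card_insert_of_notMem (by simp [hw']),
        Finset.card_erase_of_mem (Finset.mem_erase.2 ⟨hab.symm, hb⟩), Finset.card_erase_of_mem ha]
      omega) (by
      simp only [Finset.mem_insert, Finset.mem_erase]
      rintro x (rfl | rfl | ⟨h3, h4, h5⟩)
      exacts [h1, h2, h.2.2 x h5 h4 h3])
    exact hab (by rw [← h.1, this, one_smul])
  have L4 : ∀ (s : Finset α) (a b c : α) (g g' : G), s.card = k → a ∈ s → b ∈ s → c ∈ s →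
      a ≠ b → a ≠ c → b ≠ c → Tr s a b g → Tr s a c g' → ∃ y, y ∉ s ∧ g • y = y ∧ g' • y = y := by
    intro s a b c g g' hs ha hb hc hab hac hbc h h'
    have e1 : (g * g') • a = c := by rw [mul_smul, h'.1, h.2.2 c hc hac.symm hbc.symm]
    have e2 : (g * g') • b = a := by rw [mul_smul, h'.2.2 b hb hab.symm hbc, h.2.1]
    have e3 : (g * g') • c = b := by rw [mul_smul, h'.2.1, h.1]
    have e4 : ∀ x ∈ s, x ≠ a → x ≠ b → x ≠ c → (g * g') • x = x := fun x hx h1 h2 h3 => by
      rw [mul_smul, h'.2.2 x hx h1 h3, h.2.2 x hx h1 h2]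
    have h3 : (g * g') ^ 3 = 1 := hsh _ s hs fun x hx => by
      rw [pow_three, mul_smul (g * g'), mul_smul (g * g')]
      by_cases h1 : x = a
      · rw [h1, e1, e3, e2]
      by_cases h2 : x = b
      · rw [h2, e2, e1, e3]
      by_cases h3 : x = c
      · rw [h3, e3, e2, e1]
      rw [e4 x hx h1 h2 h3, e4 x hx h1 h2 h3, e4 x hx h1 h2 h3]
    have h4 := ncard_modEq_fixedBy Nat.prime_three h3 (s : Set α)ᶜ fun x hx =>
      smul_notMem_of_mapsTo (fun y hy => by
        rw [mul_smul]; exact h.smul_mem ha hb _ (h'.smul_mem ha hc y hy)) hx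
    have h5 : ((s : Set α)ᶜ ∩ fixedBy α (g * g')).ncard ≤ 2 := by
      by_contra h5
      obtain ⟨y1, y2, y3, hy1, hy2, hy3, h12, h13, h23⟩ :=
        (Set.two_lt_ncard_iff (Set.toFinite _)).1 (not_le.1 h5)
      have := hsh (g * g') (insert y1 (insert y2 (insert y3 (((s.erase a).erase b).erase c)))) (by
        have n1 : y1 ∉ s := hy1.1
        have n2 : y2 ∉ s := hy2.1
        have n3 : y3 ∉ s := hy3.1
        rw [Finset.card_insert_of_notMem (by simp [h12, h13, n1]),
          Finset.card_insert_of_notMem (by simp [h23, n2]),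
          Finset.card_insert_of_notMem (by simp [n3]),
          Finset.card_erase_of_mem (by simp [hc, hac.symm, hbc.symm]),
          Finset.card_erase_of_mem (Finset.mem_erase.2 ⟨hab.symm, hb⟩), Finset.card_erase_of_mem ha]
        omega) (by
        simp only [Finset.mem_insert, Finset.mem_erase]
        rintro x (rfl | rfl | rfl | ⟨h6, h7, h8, h9⟩)
        exacts [hy1.2, hy2.2, hy3.2, e4 x h9 h8 h7 h6])
      exact hac (by rw [← e1, this, one_smul])
    rw [hcompl s hs, Nat.ModEq] at h4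
    obtain ⟨y, hy⟩ := Set.ncard_eq_one.1
      (show ((s : Set α)ᶜ ∩ fixedBy α (g * g')).ncard = 1 by omega)
    obtain ⟨h6, h7⟩ : y ∈ (s : Set α)ᶜ ∩ fixedBy α (g * g') := hy ▸ Set.mem_singleton y
    rw [mem_fixedBy, mul_smul, invol_smul_eq_iff (L2 s a b g g hs h h)] at h7
    have h8 : g • y = y := Set.mem_singleton_iff.1 (hy ▸ ⟨smul_notMem_of_mapsTo
      (h.smul_mem ha hb) h6, by
        rw [mem_fixedBy, mul_smul, ← h7, invol_smul_smul (L2 s a c g' g' hs h' h'), h7]⟩)
    exact ⟨y, h6, h8, h7.trans h8⟩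
  have L5 : ∀ s : Finset α, s.card = k → ∃ w, w ∉ s ∧ ∀ a ∈ s, ∀ b ∈ s, a ≠ b → ∀ g : G,
      Tr s a b g → g • w = w := by
    intro s hs
    obtain ⟨a₀, ha₀, b₀, hb₀, hab₀⟩ := Finset.one_lt_card.1 (show 1 < s.card by omega)
    obtain ⟨g₀, hg₀⟩ := exists_tr hG hs ha₀ hb₀
    have h1 := ncard_modEq_fixedBy Nat.prime_two (g := g₀)
      (by rw [pow_two]; exact L2 s _ _ _ _ hs hg₀ hg₀) (s : Set α)ᶜ fun x hx =>
      smul_notMem_of_mapsTo (hg₀.smul_mem ha₀ hb₀) hx
    rw [hcompl s hs, Nat.ModEq] at h1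
    obtain ⟨w, hw, hw'⟩ : ((s : Set α)ᶜ ∩ fixedBy α g₀).Nonempty := by
      rw [← Set.ncard_pos]; omega
    have step : ∀ a ∈ s, ∀ b ∈ s, a ≠ b → (∀ g : G, Tr s a b g → g • w = w) →
        ∀ c ∈ s, a ≠ c → ∀ g : G, Tr s a c g → g • w = w := by
      intro a ha b hb hab h c hc hac g' hg'
      by_cases hbc : b = c
      · exact h g' (hbc ▸ hg')
      obtain ⟨g, hg⟩ := exists_tr hG hs ha hb
      obtain ⟨y, hy, h2, h3⟩ := L4 s a b c g g' hs ha hb hc hab hac hbc hg hg'
      rwa [L3 s a b g hs ha hb hab hg w y hw hy (h g hg) h2]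
    have h0 := step a₀ ha₀ b₀ hb₀ hab₀ fun g hg => by
      have := L2 s _ _ _ _ hs hg hg₀
      rw [← mem_fixedBy.1 hw', ← mul_smul, this, one_smul, mem_fixedBy.1 hw']
    refine ⟨w, hw, fun a ha b hb hab => ?_⟩
    by_cases h2 : a₀ = a
    · exact h2 ▸ h0 b hb (h2 ▸ hab)
    · exact step a ha a₀ ha₀ (Ne.symm h2) (fun g hg => h0 a ha h2 g hg.symm) b hb hab
  obtain ⟨s, hs⟩ := exists_finset_card_eq (α := α) (m := k) (by omega)
  obtain ⟨w, hw, hws⟩ := L5 s hs
  have hΔ : (insert w s).card = k + 1 := by rw [Finset.card_insert_of_notMem hw, hs]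
  refine ⟨insert w s, hΔ, fun a ha b hb hab => ?_⟩
  obtain ⟨y, hy, hy'⟩ := Finset.exists_mem_notMem_of_card_lt_card (s := {a, b}) (t := insert w s)
    (by rw [Finset.card_pair hab]; omega)
  simp only [Finset.mem_insert, Finset.mem_singleton, not_or] at hy'
  have hs' : ((insert w s).erase y).card = k := by rw [Finset.card_erase_of_mem hy]; omega
  have ha' : a ∈ (insert w s).erase y := Finset.mem_erase.2 ⟨Ne.symm hy'.1, ha⟩
  have hb' : b ∈ (insert w s).erase y := Finset.mem_erase.2 ⟨Ne.symm hy'.2, hb⟩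
  obtain ⟨g, hg⟩ := exists_tr hG hs' ha' hb'
  have hgy : g • y = y := by
    rcases Finset.mem_insert.1 hy with rfl | hys
    · rw [Finset.erase_insert hw] at ha' hb' hg
      exact hws a ha' b hb' hab g hg
    obtain ⟨w', hw', hws'⟩ := L5 _ hs'
    obtain ⟨c, hc, d, hd, hcd⟩ := Finset.one_lt_card.1 (show 1 < (s.erase y).card by
      rw [Finset.card_erase_of_mem hys]; omega)
    obtain ⟨hc1, hc2⟩ := Finset.mem_erase.1 hc
    obtain ⟨hd1, hd2⟩ := Finset.mem_erase.1 hd
    obtain ⟨u, hu⟩ := exists_tr hG hs hc2 hd2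
    have hu' : Tr ((insert w s).erase y) c d u := ⟨hu.1, hu.2.1, fun x hx h1 h2 => by
      rcases Finset.mem_insert.1 (Finset.mem_of_mem_erase hx) with rfl | hx
      exacts [hws c hc2 d hd2 hcd u hu, hu.2.2 x hx h1 h2]⟩
    have hc3 : c ∈ (insert w s).erase y := Finset.mem_erase.2 ⟨hc1, Finset.mem_insert_of_mem hc2⟩
    have hd3 : d ∈ (insert w s).erase y := Finset.mem_erase.2 ⟨hd1, Finset.mem_insert_of_mem hd2⟩
    rw [L3 _ c d u hs' hc3 hd3 hcd hu' y w' (by simp) hw' (hu.2.2 y hys hc1.symm hd1.symm)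
      (hws' c hc3 d hd3 hcd u hu')]
    exact hws' a ha' b hb' hab g hg
  refine ⟨g, hg.1, hg.2.1, fun x hx h1 h2 => ?_⟩
  by_cases h3 : x = y
  · rw [h3, hgy]
  · exact hg.2.2 x (Finset.mem_erase.2 ⟨h3, hx⟩) h1 h2

theorem alternatingGroup_le_of_small [Fintype α] [DecidableEq α] (G : Subgroup (Equiv.Perm α))
    {m : ℕ} (hG : IsMultiplyPretransitive G α (m + 4)) (h1 : m + 4 ≤ Nat.card α)
    (h2 : Nat.card α ≤ m + 7) {s : Finset α} (hs : s.card = m + 4)
    (hodd : Odd (Nat.card (fixingSubgroup G (s : Set α)))) : alternatingGroup α ≤ G := by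
  rcases h2.lt_or_eq with h2 | h2
  · exact _root_.IsMultiplyPretransitive.alternatingGroup_le α G
      (isMultiplyPretransitive_of_le (n := m + 4) (by omega) h1)
  have hs' : (s : Set α).ncard = m + 4 := by rw [Set.ncard_coe_finset, hs]
  have hcard := card_eq_descFactorial_mul hG hs'
  have hdvd := card_fixingSubgroup_dvd_factorial (G := G) (s : Set α)
  have hidx := G.index_mul_card
  rw [hs', h2, show m + 7 - (m + 4) = 3 by omega] at hdvd
  have h3 : Nat.card (fixingSubgroup G (s : Set α)) ≠ 1 := fun h3 => by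
    have := sharp_add_four_degree hG h1 fun g t ht hg => by
      rw [card_fixingSubgroup_eq hG hs' (t := t) (by rw [Set.ncard_coe_finset, ht]),
        Subgroup.card_eq_one] at h3
      exact Subgroup.mem_bot.1 (h3 ▸ (mem_fixingSubgroup_iff G).2 hg)
    omega
  rw [Nat.card_perm, hcard, ← Nat.factorial_mul_descFactorial h1, h2,
    show m + 7 - (m + 4) = 3 by omega] at hidx
  have hpos : 0 < (m + 7).descFactorial (m + 4) := Nat.descFactorial_pos.2 (by omega)
  generalize Nat.card (fixingSubgroup G (s : Set α)) = c at hodd hdvd h3 hidx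
  generalize (m + 7).descFactorial (m + 4) = D at hpos hidx
  have hle := Nat.le_of_dvd (Nat.factorial_pos _) hdvd
  rw [Nat.odd_iff] at hodd
  norm_num [Nat.factorial] at hle hdvd hidx
  obtain rfl : c = 3 := by interval_cases c <;> omega
  refine (Equiv.Perm.eq_alternatingGroup_of_index_eq_two ?_).ge
  refine Nat.eq_of_mul_eq_mul_right (Nat.mul_pos hpos (by norm_num : 0 < 3)) ?_
  rw [hidx]
  ring

universe u

theorem exists_induce_alt_aux {k : ℕ} (hk : 4 ≤ k) (n : ℕ) : ∀ (α : Type u) [Finite α]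
    (G : Subgroup (Equiv.Perm α)), Nat.card α = n → k < n → IsMultiplyPretransitive G α k →
    ∃ x : Fin (k + 1) ↪ α, ∀ σ : Equiv.Perm (Fin (k + 1)), Equiv.Perm.sign σ = 1 →
      ∃ g : G, ∀ i, g • x i = x (σ i) := by
  classical
  induction n using Nat.strong_induction_on with
  | _ n ih =>
  intro α _ G hn hkn hG
  have := Fintype.ofFinite α
  obtain ⟨Q, hQ, hQk, hQt, hmax⟩ := exists_descent Nat.prime_two hG (hn ▸ hkn)
  by_cases hQ1 : Nat.card (normalizerFixed Q α) < n
  · obtain ⟨x, hx⟩ := ih _ hQ1 _ _ rfl hQk (isMultiplyPretransitive_range hQt)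
    refine ⟨x.trans (Embedding.subtype _), fun σ hσ => ?_⟩
    obtain ⟨⟨_, g, rfl⟩, hg⟩ := hx σ hσ
    exact ⟨g, fun i => congrArg Subtype.val (hg i)⟩
  have hQb : Q = ⊥ := by
    have h1 : fixedPoints Q α = Set.univ := by
      apply Set.eq_of_subset_of_ncard_le (Set.subset_univ _)
      rw [Set.ncard_univ, hn]
      exact not_lt.1 hQ1
    rw [eq_bot_iff]
    intro q hq
    refine Subgroup.mem_bot.2 (eq_of_smul_eq_smul (α := α) fun x => ?_)
    rw [one_smul]
    exact (h1 ▸ Set.mem_univ x : x ∈ fixedPoints Q α) ⟨q, hq⟩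
  have hinv : ∀ t : G, t * t = 1 → k < (fixedBy α t).ncard → t = 1 := by
    intro t ht h
    have h1 := hmax (Subgroup.zpowers t) (isPGroup_zpowers_of_pow_eq_one (a := 1)
      (by rwa [pow_one, pow_two])) (h.trans_le (Set.ncard_le_ncard fun x hx g =>
        (Subgroup.zpowers_le (H := stabilizer G x)).2 hx g.2))
    rw [hQb, Subgroup.card_bot] at h1
    exact Subgroup.zpowers_eq_bot.1 (Subgroup.card_eq_one.1 (le_antisymm h1 Nat.card_pos))
  obtain ⟨s, hs⟩ := exists_finset_card_eq (α := α) (m := k) (by omega)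
  have hcs : ∀ t : Finset α, t.card = k → Nat.card (fixingSubgroup G (t : Set α)) =
      Nat.card (fixingSubgroup G (s : Set α)) := fun t ht =>
    card_fixingSubgroup_eq hG (by rw [Set.ncard_coe_finset, ht]) (by rw [Set.ncard_coe_finset, hs])
  rcases Nat.even_or_odd (Nat.card (fixingSubgroup G (s : Set α))) with hev | hodd
  · obtain ⟨Δ, hΔ⟩ := exists_finset_card_eq (α := α) (m := k + 1) (by omega)
    obtain ⟨x, -, hx⟩ := exists_induce_of_tr (G := G) hΔ fun a ha b hb hab =>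
      exists_tr_of_even (by omega) (fun t ht => hcs t ht ▸ hev) hinv hΔ ha hb hab
    exact ⟨x, fun σ _ => hx σ⟩
  obtain ⟨m, rfl⟩ := Nat.exists_eq_add_of_le' hk
  rcases hall_add hG (fun t u hu ht htu => by
    have h2 := pow_card_eq_one_of_mem ((mem_fixingSubgroup_iff G).2 htu)
    obtain ⟨j, hj⟩ := hodd
    rwa [hcs u hu, hj, pow_succ, pow_mul, pow_two, ht, one_pow, one_mul] at h2) with h | ⟨h, h'⟩
  · have h1 := alternatingGroup_le_of_small G hG (by omega) h hs hodd
    obtain ⟨x⟩ : Nonempty (Fin (m + 4 + 1) ↪ α) := Embedding.nonempty_of_card_le (by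
      rw [Fintype.card_fin, ← Nat.card_eq_fintype_card]; omega)
    exact ⟨x, fun σ hσ => ⟨⟨σ.viaFintypeEmbedding x, h1 (by
      rw [Equiv.Perm.mem_alternatingGroup, Equiv.Perm.viaFintypeEmbedding_sign, hσ])⟩,
      fun i => Equiv.Perm.viaFintypeEmbedding_apply_image σ x i⟩⟩
  · obtain ⟨Δ, hΔ, hΔ'⟩ := exists_tr_of_sharp (by omega) hG h h'
    obtain ⟨x, -, hx⟩ := exists_induce_of_tr hΔ hΔ'
    exact ⟨x, fun σ _ => hx σ⟩

/-- A `k`-transitive group, `4 ≤ k < n`, induces the alternating group on some `(k + 1)`-set. -/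
theorem exists_induce_alt [Finite α] {k : ℕ} (hk : 4 ≤ k) (hkn : k < Nat.card α)
    (hG : IsMultiplyPretransitive G α k) :
    ∃ x : Fin (k + 1) ↪ α, ∀ σ : Equiv.Perm (Fin (k + 1)), Equiv.Perm.sign σ = 1 →
      ∃ g : G, ∀ i, g • x i = x (σ i) := by
  obtain ⟨x, hx⟩ := exists_induce_alt_aux hk _ α _ rfl hkn (isMultiplyPretransitive_range hG)
  refine ⟨x, fun σ hσ => ?_⟩
  obtain ⟨⟨_, g, rfl⟩, hg⟩ := hx σ hσ
  exact ⟨g, hg⟩

end Cfsg.Agent.H60
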