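import Mathlib
import Cfsg.Agent.H60.LWAlt

/-!
Counting lemmas for homogeneous groups.
-/

set_option autoImplicit false

namespace Cfsg.Agent.H60

open MulAction Function
open scoped Pointwise

variable {G α : Type*} [Group G] [MulAction G α]

theorem card_fixingSubgroup_eq_of_homog [DecidableEq α] {j : ℕ}
    (h : IsPretransitive G (Set.powersetCard α j)) {s t : Finset α} (hs : s.card = j)
    (ht : t.card = j) :
    Nat.card (fixingSubgroup G (s : Set α)) = Nat.card (fixingSubgroup G (t : Set α)) := by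
  obtain ⟨g, hg⟩ := isPretransitive_powersetCard_iff.1 h s t hs ht
  exact Nat.card_congr (SubMulAction.fixingSubgroupEquivFixingSubgroup (g := g)
    (by rw [← hg, Finset.coe_smul_finset])).toEquiv

theorem card_eq_choose_mul [Finite α] [DecidableEq α] {j : ℕ} (hj : j ≤ Nat.card α)
    (h : IsPretransitive G (Set.powersetCard α j))
    (hsh : ∀ (g : G) (s : Finset α), s.card = j → (∀ x ∈ s, g • x = x) → g = 1) :
    ∃ a, a ∣ j.factorial ∧ Nat.card G = (Nat.card α).choose j * a := by
  obtain ⟨s, hs⟩ := exists_finset_card_eq hj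
  refine ⟨Nat.card (stabilizer G (s : Set α)), ?_, ?_⟩
  · have h1 : j.factorial = Nat.card (Equiv.Perm (s : Set α)) := by
      rw [Nat.card_perm, Nat.card_coe_set_eq, Set.ncard_coe_finset, hs]
    rw [h1]
    apply Subgroup.card_dvd_of_injective (toPermHom (stabilizer G (s : Set α)) (s : Set α))
    rw [injective_iff_map_eq_one]
    intro g hg
    refine Subtype.ext (hsh g s hs fun x hx => ?_)
    have := DFunLike.congr_fun hg ⟨x, hx⟩
    exact congrArg Subtype.val this
  · have h1 := Set.powersetCard.stabilizer_coe (G := G) (⟨s, hs⟩ : Set.powersetCard α j)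
    rw [← Set.powersetCard.card, ← index_stabilizer_of_transitive G
      (⟨s, hs⟩ : Set.powersetCard α j), h1]
    exact (Subgroup.index_mul_card _).symm

theorem isMultiplyPretransitive_of_card_eq [Finite α] {j : ℕ} (hj : j ≤ Nat.card α)
    (hsh : ∀ (g : G) (s : Finset α), s.card = j → (∀ x ∈ s, g • x = x) → g = 1)
    (h : Nat.card G = (Nat.card α).descFactorial j) : IsMultiplyPretransitive G α j := by
  classical
  have := Fintype.ofFinite α
  refine ⟨fun x y => ?_⟩
  have h1 : orbit G x = Set.univ := by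
    apply Set.eq_of_subset_of_ncard_le (Set.subset_univ _)
    rw [← index_stabilizer, stabilizer_eq_bot_of_fix_finset hsh, Subgroup.index_bot, h,
      Set.ncard_univ, Nat.card_eq_fintype_card, Fintype.card_embedding_eq, Fintype.card_fin,
      Nat.card_eq_fintype_card]
  exact (h1 ▸ Set.mem_univ y : y ∈ orbit G x)

theorem exists_smul_eq_comp_of_homog [DecidableEq α] {j : ℕ}
    (h : IsPretransitive G (Set.powersetCard α j)) (x z : Fin j ↪ α) :
    ∃ (g : G) (σ : Equiv.Perm (Fin j)), ∀ i, g • x i = z (σ i) := by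
  obtain ⟨g, hg⟩ := isPretransitive_powersetCard_iff.1 h (Finset.univ.map x) (Finset.univ.map z)
    (by simp) (by simp)
  have h1 : ∀ i, ∃ l, z l = g • x i := fun i => by
    have : g • x i ∈ Finset.univ.map z :=
      hg ▸ Finset.smul_mem_smul_finset (Finset.mem_map_of_mem x (Finset.mem_univ i))
    obtain ⟨l, -, hl⟩ := Finset.mem_map.1 this
    exact ⟨l, hl⟩
  choose f hf using h1
  have h2 : Injective f := fun i l hil =>
    x.injective (smul_left_cancel g (by rw [← hf, ← hf, hil]))
  exact ⟨g, Equiv.ofBijective f (Finite.injective_iff_bijective.1 h2), fun i => (hf i).symm⟩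

theorem isMultiplyPretransitive_of_homog_of_induce [DecidableEq α] {j : ℕ}
    (h : IsPretransitive G (Set.powersetCard α j)) (z : Fin j ↪ α)
    (hz : ∀ σ : Equiv.Perm (Fin j), ∃ g : G, ∀ i, g • z i = z (σ i)) :
    IsMultiplyPretransitive G α j := by
  refine ⟨fun x y => ?_⟩
  obtain ⟨g, σ, hg⟩ := exists_smul_eq_comp_of_homog h x z
  obtain ⟨g', σ', hg'⟩ := exists_smul_eq_comp_of_homog h y z
  obtain ⟨u, hu⟩ := hz (σ' * σ⁻¹)
  refine ⟨g'⁻¹ * u * g, Function.Embedding.ext fun i => ?_⟩
  change (g'⁻¹ * u * g) • x i = y i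
  rw [mul_smul, mul_smul, hg, hu, inv_smul_eq_iff, hg']
  simp

end Cfsg.Agent.H60
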