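import Mathlib
import Cfsg.Agent.H45.OnDefs

/-!
# Involutions that move a component; no four-groups in the stabilizers
-/

set_option autoImplicit false

namespace Cfsg.Agent.H60.OnE1a

open Cfsg.Agent.H45.On

universe u v

theorem e1a (sim : SimStmt.{u}) (inv : InvStmt.{u}) (swap : SwapStmt.{u, v}) :
    E1aStmt.{u, v} := by
  intro G Ω _ _ _ _ S T
  refine ⟨fun x y M M' b hM hM' hb ib bx hne => ?_, fun J x y M hM hxy h4 => ?_⟩
  · have hxy : y ≠ x := by
      rintro rfl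
      by_cases e : M = M'
      · exact hne (cj_self (e ▸ hb))
      · exact hne (cj_of_comm fun m hm => (S.comm hM hM' e m hm b hb).symm)
    have hc : Cm M (cj b M) := S.comm hM (bx ▸ S.conj b hM) hne.symm
    have hb' : b⁻¹ = b := inv_eq_of_mul_eq_one_right ib.1
    rcases (sim M (S.simple hM) (S.nab hM)).2.2.2.2.1 (St M y) inf_le_left (fun s hs h hh => by
      refine Subgroup.mem_inf.2 ⟨M.mul_mem (M.mul_mem hs hh.1) (M.inv_mem hs), ?_⟩
      have h1 := hc s hs _ (cj_mem hs)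
      have h2 := hc h hh.1 _ (cj_mem hs)
      have h3 : s * (b * s * b⁻¹) * b = b * (s * (b * s * b⁻¹)) := by
        conv_rhs => rw [h1, ← mul_assoc, ← mul_assoc, ← mul_assoc, ib.1, one_mul, hb']
        group
      have h4 : s * (b * s * b⁻¹) ∈ MulAction.stabilizer G y := (T.cn hM' hb ib.2 h3).2
      have h5 : s * h * s⁻¹ = s * (b * s * b⁻¹) * h * (s * (b * s * b⁻¹))⁻¹ := by
        rw [mul_assoc s _ h, ← h2]; group
      rw [h5]
      exact mul_mem (mul_mem h4 (Subgroup.mem_inf.1 hh).2) (inv_mem h4)) with h | h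
    · exact h
    · exact absurd (T.d0 x y M hM fun m hm => (h.ge hm).2) hxy
  · obtain ⟨b, hb, b', hb', ib, ib', hne, hc⟩ := h4
    obtain ⟨U, hU, hUx⟩ := J y x hxy.symm
    have mv : ∀ c ∈ M, Inv c → cj c U ≠ U := fun c hcM ic e => by
      obtain ⟨a, ha, -, -, ia, -⟩ := (sim U (S.simple hU) (S.nab hU)).1
      obtain ⟨a, ha, ia, hac⟩ := inv U c ic.1 e ⟨a, ha, ia⟩
      have : a ∈ St U x := ⟨ha, (T.cn hM hcM ic.2 hac.symm).2⟩
      rw [hUx] at this
      exact ia.2 this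
    refine hxy (T.d0 y x U hU (swap S y x U b b' hU ib.1 ib'.1 hb.2 hb'.2
      (fun c h => (T.cn hM hb.1 ib.2 h).2) (fun c h => (T.cn hM hb'.1 ib'.2 h).2)
      (mv b hb.1 ib) (mv b' hb'.1 ib') fun e => mv (b * b') (mul_mem hb.1 hb'.1) ⟨?_, ?_⟩ ?_))
    · rw [mul_assoc, ← mul_assoc b', ← hc, mul_assoc, ib'.1, mul_one, ib.1]
    · intro h
      exact hne (mul_right_cancel (h.trans ib'.1.symm))
    · rw [cj_mul, ← e, ← cj_mul, ib.1, cj_one]

end Cfsg.Agent.H60.OnE1a
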