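import Mathlib
import Cfsg.Agent.H35.RfQ

/-! Project RF, piece TE: normal subgroups of `2^11 : 2^6 : 3.S₆` and the centre of `3.A₆`. -/

set_option autoImplicit false

namespace Cfsg.Agent.H60.RfTe

open Cfsg Subgroup Cfsg.Agent.H42 Cfsg.Agent.H18.Rf Cfsg.Agent.H35.RF Equiv
open scoped commutatorElement Pointwise

universe u

theorem nabs {M : Type u} [Group M] (R : Subgroup M) [R.Normal] {ω a b : M} (τ : M →* Perm (Fin 6))
    (hs : Function.Surjective τ) (hk : ∀ k, τ k = 1 → k ∈ R ⊔ zpowers ω) (ha : Commute a ω)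
    (hb : Commute b ω) (e : ω = ⁅a, b⁆ ^ 4) (sa : Perm.sign (τ a) = 1)
    (sl : ∀ m : M, ⁅m, ω⁆ ∈ R ∨ m * ω * m⁻¹ * ω ∈ R) (inv : ∃ m : M, ⁅m, ω⁆ ∉ R)
    (Y : Subgroup M) [Y.Normal] (hY : R ≤ Y) :
    Y ≤ R ⊔ zpowers ω ∨ ∀ h : M, ⁅h, ω⁆ ∈ R → h ∈ Y := by
  have om : ∀ (X : Subgroup M) [X.Normal], a ∈ X ⊔ zpowers ω → ω ∈ X := fun X hX h => by
    obtain ⟨y, hy, _, ⟨i, rfl⟩, rfl⟩ := mem_sup_of_normal_left.1 h
    rw [e]
    refine pow_mem ?_ 4
    have : ⁅y * ω ^ i, b⁆ = y * (b * y⁻¹ * b⁻¹) := by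
      rw [commutatorElement_def, mul_assoc y, ← (hb.zpow_right i).eq]; group
    rw [this]
    exact mul_mem hy (hX.conj_mem _ (inv_mem hy) b)
  have nh : ∀ (X : Subgroup M) [X.Normal], R ≤ X →
      X ≤ R ⊔ zpowers ω ∨ ∀ h, Perm.sign (τ h) = 1 → h ∈ X := fun X hX hR => by
    by_cases h0 : X.map τ = ⊥
    · exact .inl fun x hx => hk x (by simpa using h0.le (mem_map_of_mem τ hx))
    have := hX.map τ hs
    have h1 := Perm.alternatingGroup_le_of_normal (α := Fin 6) (by simp)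
      ((nontrivial_iff_ne_bot _).2 h0)
    have h2 : ∀ h, Perm.sign (τ h) = 1 → h ∈ X ⊔ zpowers ω := fun h hh => by
      obtain ⟨y, hy, e1⟩ := h1 (Perm.mem_alternatingGroup.2 hh)
      have := sup_le_sup_right hR _ (hk (y⁻¹ * h) (by rw [map_mul, map_inv, e1, inv_mul_cancel]))
      simpa using mul_mem (mem_sup_left hy) this
    exact .inr fun h hh => sup_le le_rfl (zpowers_le.2 (om X (h2 a sa))) (h2 h hh)
  let π := QuotientGroup.mk' R
  have hπ : ∀ x, π x = 1 ↔ x ∈ R := fun x => QuotientGroup.eq_one_iff x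
  let D : Subgroup M := (centralizer {π ω}).comap π
  have hD : ∀ x : M, x ∈ D ↔ ⁅x, ω⁆ ∈ R := fun x => by
    rw [mem_comap, mem_centralizer_singleton_iff, ← hπ, map_commutatorElement,
      commutatorElement_eq_one_iff_mul_comm]
  have nD : D.Normal := ⟨fun d hd m => by
    rw [mem_comap, mem_centralizer_singleton_iff] at hd ⊢
    have h1 : Commute (π d) ((π m)⁻¹ * π ω * π m) := by
      rcases sl m⁻¹ with h | h
      · rw [← hπ, map_commutatorElement, commutatorElement_eq_one_iff_mul_comm, map_inv] at h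
        rw [h, inv_mul_cancel_right]
        exact hd
      · rw [← hπ, map_mul, mul_eq_one_iff_eq_inv, inv_inv, map_mul, map_mul, map_inv] at h
        rw [h]
        exact Commute.inv_right hd
    simp only [map_mul, map_inv]
    calc _ = π m * (π d * ((π m)⁻¹ * π ω * π m)) * (π m)⁻¹ := by group
      _ = _ := by rw [h1.eq]; group⟩
  obtain ⟨m, hm⟩ := inv
  have hev := (nh D fun r hr => by rw [mem_comap, (hπ r).2 hr]; exact one_mem _).resolve_left fun h =>
    hm (by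
      have := om R (h ((hD a).2 (by rw [ha.commutator_eq]; exact one_mem _)))
      rw [← hπ, map_commutatorElement, (hπ ω).2 this, commutatorElement_one_right])
  refine (nh Y hY).imp_right fun h x hx => h x ?_
  by_contra h1
  have h2 : Perm.sign (τ m) ≠ 1 := fun h2 => hm ((hD m).1 (hev m h2))
  have h3 := hev (m * x⁻¹) (by
    rw [map_mul, map_inv, map_mul, map_inv, (Int.units_eq_one_or _).resolve_left h1,
      (Int.units_eq_one_or _).resolve_left h2, mul_inv_cancel])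
  exact hm ((hD m).1 (by simpa using mul_mem h3 ((hD x).2 hx)))

theorem exists_tau : ∃ τ : GS →* Perm (Fin 6), Function.Surjective τ ∧
    ∀ g, τ g = 1 → g.1 ∈ gen (rS :: gF) := by
  let T : Fin 6 → Finset GolayPt := fun i => toSet (fld 24 sext0 i)
  have hT : Function.Injective T := fun i j h => Fin.ext (famOk_inj famOk_sext0 i.2 j.2 h)
  have h1 : ∀ (g : GS) (i : Fin 6), ∃ j, g.1 • T i = T j := fun g i => by
    have : g.1 • T i ∈ famDec 6 sext0 := by
      rw [← MulAction.mem_stabilizer_iff.1 g.2]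
      exact Finset.smul_mem_smul_finset (mem_famDec.2 ⟨i, i.2, rfl⟩)
    obtain ⟨j, hj, e⟩ := mem_famDec.1 this
    exact ⟨⟨j, hj⟩, e.symm⟩
  choose f hf using h1
  let τ0 : GS →* Function.End (Fin 6) :=
    { toFun := f
      map_one' := funext fun i => hT (by rw [← hf]; exact one_smul _ _)
      map_mul' := fun g h => funext fun i => hT (by
        change T (f (g * h) i) = T (f g (f h i))
        rw [← hf, ← hf, ← hf, coe_mul, mul_smul]) }
  have hτ : ∀ (g : ℕ) (hg : inM g = true) (h : toM g ∈ GS) (σ : Perm (Fin 6)),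
      (∀ i : Fin 6, img g (fld 24 sext0 i) = fld 24 sext0 (σ i)) → τ0.toHomPerm ⟨toM g, h⟩ = σ :=
    fun g hg h σ e => Equiv.ext fun i => hT (by
      change T (f _ i) = _
      rw [← hf, toM_smul_toSet hg, e])
  have m1 := allL_fix_fam (l := [611564971273112514952572739931980901,
    28820793223202677761424906652289079]) (inM_of_allL (by decide +kernel)) (k := 6) (c := sext0)
    (by decide +kernel)
  have hs : Function.Surjective τ0.toHomPerm := by
    rw [← MonoidHom.range_eq_top, eq_top_iff,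
      ← Perm.closure_cycle_adjacent_swap (isCycle_finRotate (n := 4)) support_finRotate 0, closure_le]
    rintro _ (rfl | rfl)
    · exact ⟨_, hτ _ (by decide +kernel) (m1 _ List.mem_cons_self) _ (by decide +kernel)⟩
    · exact ⟨_, hτ _ (by decide +kernel) (m1 _ (List.mem_cons_of_mem _ List.mem_cons_self)) _
        (by decide +kernel)⟩
  have hK : ∀ g ∈ rS :: gF, inM g = true := inM_of_allL (by decide +kernel)
  have m2 := allL_fix_fam hK (k := 6) (c := sext0) (by decide +kernel)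
  have h2 : gen (rS :: gF) ≤ τ0.toHomPerm.ker.map GS.subtype := gen_le _ fun g hg =>
    ⟨⟨toM g, m2 g hg⟩, hτ g (hK g hg) _ 1 (by revert g; decide +kernel), rfl⟩
  have h3 : Nat.card τ0.toHomPerm.ker = 192 := by
    have := card_mul_index τ0.toHomPerm.ker
    rw [index_ker, MonoidHom.range_eq_top.2 hs, card_top, Nat.card_perm, card_stab_sextet sext0_mem,
      Nat.card_fin] at this
    simp only [Nat.factorial] at this
    omega
  have h4 := eq_of_le_of_card_ge h2 (by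
    rw [card_map_of_injective GS.subtype_injective, h3,
      card_gen_of_orbSize hK (fuel := 200) (n := 192) (by norm_num) (by decide +kernel)])
  exact ⟨_, hs, fun g hg => h4 ▸ mem_map_of_mem _ hg⟩

theorem exists_ab : ∃ a ∈ GS, ∃ b ∈ GS, a * toM rS = toM rS * a ∧ b * toM rS = toM rS * b ∧
    a ^ 3 = 1 ∧ a * b = toM rS * (b * a) := by
  have h : ∀ g ∈ [219429136266108456276325809932941859, 970452748381697609285226999098476576, rS],
      inM g = true := inM_of_allL (by decide +kernel)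
  have m := allL_fix_fam h (k := 6) (c := sext0) (by decide +kernel)
  have ha := h _ List.mem_cons_self
  have hb := h _ (List.mem_cons_of_mem _ List.mem_cons_self)
  have hr := h rS (by simp)
  refine ⟨_, m _ List.mem_cons_self, _, m _ (List.mem_cons_of_mem _ List.mem_cons_self),
    (comm_iff ha hr).1 (by decide +kernel), (comm_iff hb hr).1 (by decide +kernel), ?_, ?_⟩
  · rw [← toM_ppow ha, toM_eq_one_iff (inM_ppow ha 3)]
    decide +kernel
  · rw [← toM_pmul ha hb, ← toM_pmul hb ha, ← toM_pmul hr (inM_pmul hb ha)]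
    exact congrArg toM (by decide +kernel)

theorem lift {G : Type u} [Group G] {V : Subgroup G} {ρ : NN V →* M24} (st : St V ρ) {ω : NN V}
    (o3 : ω ^ 3 = 1) {a : M24} (ha : a * ρ ω = ρ ω * a) : ∃ n : NN V, ρ n = a ∧ Commute n ω := by
  obtain ⟨n, rfl⟩ := st.sur a
  have hv : ρ (n * ω * n⁻¹ * ω⁻¹) = 1 := by
    simp only [map_mul, map_inv]
    rw [ha]; group
  generalize hv' : n * ω * n⁻¹ * ω⁻¹ = v at hv
  have h2 : v * v = 1 := Subtype.ext (st.el _ ((st.ker v).1 hv))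
  have h1 : ρ (ω * v * ω⁻¹) = 1 := by rw [map_mul, map_mul, hv, map_inv]; group
  have h3 : ω * v * ω⁻¹ * (ω * v * ω⁻¹) = 1 := Subtype.ext (st.el _ ((st.ker _).1 h1))
  have h4 : (v * ω) ^ 3 = 1 := by
    rw [← hv', inv_mul_cancel_right, conj_pow, o3]; group
  have h5 : v * (ω * v * ω⁻¹) = ω * v * ω⁻¹ * v := Subtype.ext (by
    have : (v : G) ∈ CC V := st.cen.symm ▸ (st.ker v).1 hv
    exact (mem_centralizer_iff.1 this _ ((st.ker _).1 h1)).symm)
  refine ⟨ω * v * ω⁻¹ * n, by rw [map_mul, h1, one_mul], ?_⟩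
  have h6 : n * ω = v * ω * n := by rw [← hv']; group
  have h7 : ω * (ω * v * ω⁻¹) * ω⁻¹ = ω * v * ω⁻¹ * v := by
    have e1 : ω⁻¹ * ω⁻¹ = ω := by
      rw [← mul_inv_rev, inv_eq_iff_mul_eq_one, ← o3, pow_succ, sq]
    have e2 : v * (ω * v * ω⁻¹) * (ω * (ω * v * ω⁻¹) * ω⁻¹) = 1 := by
      calc _ = v * ω * (v * ω) * (v * (ω⁻¹ * ω⁻¹)) := by group
        _ = 1 := by rw [e1, ← h4, pow_succ, sq]
    rw [← inv_eq_of_mul_eq_one_right e2, mul_inv_rev, inv_eq_of_mul_eq_one_right h2,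
      inv_eq_of_mul_eq_one_right h3]
  calc ω * v * ω⁻¹ * n * ω = ω * v * ω⁻¹ * v * ω * n := by rw [mul_assoc _ n, h6]; group
    _ = ω * (ω * v * ω⁻¹ * n) := by rw [← h7]; group

theorem te (hK : KitTStmt.{u}) (hV : VaTStmt.{u}) (hT : TaStmt.{u}) : TeStmt.{u} := by
  intro G _ _ V ρ ψ ω tz
  have va := hV G V ρ ψ ω tz
  have ta := hT G V ρ ψ ω tz
  have hM := (hK G V ρ ψ tz.st tz.tod).1
  obtain ⟨hω, eω⟩ := tz.om
  have o3 : (⟨ω, hω⟩ : NN V) ^ 3 = 1 := Subtype.ext tz.o3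
  obtain ⟨a0, ha0, b0, hb0, c1, c2, c3, c4⟩ := exists_ab
  rw [← eω] at c1 c2 c4
  obtain ⟨a, rfl, ha⟩ := lift tz.st o3 c1
  obtain ⟨b, rfl, hb⟩ := lift tz.st o3 c2
  have aM : (a : G) ∈ MM V (ψ t0) := hM ▸ coe_mem_pre.2 ha0
  have bM : (b : G) ∈ MM V (ψ t0) := hM ▸ coe_mem_pre.2 hb0
  have e : (⟨ω, hω⟩ : NN V) = ⁅a, b⁆ ^ 4 := by
    generalize (⟨ω, hω⟩ : NN V) = w at ha hb c4 o3
    have h1 : ρ (w⁻¹ * ⁅a, b⁆) = 1 := by
      simp only [commutatorElement_def, map_mul, map_inv]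
      rw [c4]; group
    have h2 : w⁻¹ * ⁅a, b⁆ * (w⁻¹ * ⁅a, b⁆) = 1 := Subtype.ext (tz.st.el _ ((tz.st.ker _).1 h1))
    have h3 : Commute w (w⁻¹ * ⁅a, b⁆) := (Commute.refl w).inv_right.mul_right
      (((ha.symm.mul_right hb.symm).mul_right ha.symm.inv_right).mul_right hb.symm.inv_right)
    rw [← mul_inv_cancel_left w ⁅a, b⁆, h3.mul_pow, show 4 = 2 * 2 from rfl,
      pow_mul (w⁻¹ * ⁅a, b⁆), sq (w⁻¹ * ⁅a, b⁆), h2, one_pow, mul_one, pow_succ, o3, one_mul]
  have e' : ω = ⁅(a : G), (b : G)⁆ ^ 4 := congrArg Subtype.val e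
  have ha' : Commute (a : G) ω := congrArg Subtype.val ha.eq
  have hb' : Commute (b : G) ω := congrArg Subtype.val hb.eq
  refine ⟨fun Y hR hY nY => ?_, ?_⟩
  · obtain ⟨τ, hs, hk⟩ := exists_tau
    let θ : MM V (ψ t0) →* M24 := ρ.comp (inclusion inf_le_left)
    have hθ : ∀ m, θ m ∈ GS := fun m => (mem_pre.1 (hM ▸ m.2)).2
    have hl : ∀ g ∈ GS, ∃ m, θ m = g := fun g hg => by
      obtain ⟨n, rfl⟩ := tz.st.sur g
      exact ⟨⟨n, hM ▸ coe_mem_pre.2 hg⟩, rfl⟩
    have := (normal_subgroupOf_iff_le_normalizer va.RM).2 va.nR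
    have := (normal_subgroupOf_iff_le_normalizer hY).2 nY
    have key := nabs ((RT V ρ).subgroupOf (MM V (ψ t0))) (ω := ⟨ω, ta.om⟩) (a := ⟨a, aM⟩)
      (b := ⟨b, bM⟩) (τ.comp (θ.codRestrict GS hθ))
      (hs.comp fun g => (hl g g.2).imp fun m hm => Subtype.ext hm) (fun k h => by
        have h1 : gen (rS :: gF) ≤ ((RT V ρ).subgroupOf (MM V (ψ t0)) ⊔
            zpowers ⟨ω, ta.om⟩).map θ := gen_le _ fun g hg => by
          rcases List.mem_cons.1 hg with rfl | hg
          · exact ⟨_, mem_sup_right (mem_zpowers _), eω⟩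
          · obtain ⟨n, hn⟩ := tz.st.sur (toM g)
            have h2 : (n : G) ∈ RT V ρ := coe_mem_pre.2 (hn ▸ toM_mem_gen hg)
            exact ⟨⟨n, va.RM h2⟩, mem_sup_left h2, hn⟩
        obtain ⟨s, h2, h3⟩ := h1 (hk _ h)
        have h4 : θ (k * s⁻¹) = 1 := by rw [map_mul, map_inv, h3]; exact mul_inv_cancel _
        have h5 : k * s⁻¹ ∈ (RT V ρ).subgroupOf (MM V (ψ t0)) := va.VR ((tz.st.ker _).1 h4)
        simpa using mul_mem (mem_sup_left h5) h2)
      (Subtype.ext ha'.eq) (Subtype.ext hb'.eq) (Subtype.ext e') (by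
        have h1 : (τ.comp (θ.codRestrict GS hθ)) ⟨a, aM⟩ ^ 3 = 1 := by
          rw [MonoidHom.comp_apply, ← map_pow, ← map_one τ]
          exact congrArg τ (Subtype.ext c3)
        have h2 := congrArg Perm.sign h1
        rw [map_pow, map_one] at h2
        refine (Int.units_eq_one_or _).resolve_right fun h => ?_
        rw [h] at h2
        exact absurd h2 (by decide))
      (fun m => ta.sl m m.2) (by
        obtain ⟨m, hm, h⟩ := ta.inv
        exact ⟨⟨m, hm⟩, h⟩) (Y.subgroupOf (MM V (ψ t0))) fun x hx => hR hx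
    refine key.imp (fun h y hy => ?_) fun h x hx h1 => h ⟨x, hx⟩ h1
    exact (sup_le (fun x hx => mem_sup_left hx) (zpowers_le.2 (mem_sup_right (mem_zpowers ω))) :
      _ ≤ (RT V ρ ⊔ zpowers ω).subgroupOf (MM V (ψ t0))) (h (show (⟨y, hY hy⟩ : MM V (ψ t0)) ∈ _ from hy))
  · have := pow_mem (commutator_mem_commutator
      (mem_inf.2 ⟨aM, mem_centralizer_singleton_iff.2 ha'.eq⟩)
      (mem_inf.2 ⟨bM, mem_centralizer_singleton_iff.2 hb'.eq⟩)) 4
    rwa [← e'] at this

end Cfsg.Agent.H60.RfTe
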