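import Cfsg.Agent.H77.SgDefs

/-! # The valency estimate -/

set_option autoImplicit false
set_option linter.unusedSectionVars false
set_option linter.style.haveILetI false

namespace Cfsg.Agent.H77.Sg.H60Spec

open Cfsg Cfsg.Agent.H59 Matrix Finset
open scoped ComplexConjugate ComplexOrder

universe v w

/-- A non-constant function on an abelian group has a non-trivial Fourier coefficient. -/
theorem exists_char {P : Type*} [Group P] [Fintype P] (hc : ∀ a b : P, a * b = b * a) {φ : P → ℂ}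
    {s : P} (h : φ s ≠ φ 1) : ∃ l : P →* ℂ, (∃ r, l r ≠ 1) ∧ (∀ s, conj (l s) = l s⁻¹) ∧
      ∑ s, l s⁻¹ * φ s ≠ 0 := by
  classical
  letI : CommGroup P := { (inferInstance : Group P) with mul_comm := hc }
  by_contra hn
  have h0 : ∀ ψ : AddChar (Additive P) ℂ, ψ ≠ 0 → ∑ s : P, ψ (Additive.ofMul s⁻¹) * φ s = 0 :=
    fun ψ hψ => by_contra fun e => hn ⟨ψ.toMonoidHom.comp (MulEquiv.multiplicativeAdditive P).symm.toMonoidHom,
      not_forall.1 fun h => hψ (AddChar.ext _ _ fun a => h a.toMul),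
      fun s => (ψ.map_neg_eq_conj (Additive.ofMul s)).symm, e⟩
  have k : ∀ r : P, (Fintype.card P : ℂ) * φ r = ∑ s, φ s := fun r => by
    have e : ∑ ψ : AddChar (Additive P) ℂ, ψ (Additive.ofMul r) *
        ∑ s : P, ψ (Additive.ofMul s⁻¹) * φ s = ∑ s, φ s := by
      rw [sum_eq_single 0 (fun ψ _ hψ => by rw [h0 ψ hψ, mul_zero]) (by simp)]
      simp
    rw [← e]
    simp only [mul_sum, ← mul_assoc, ← AddChar.map_add_eq_mul]
    rw [sum_comm]
    simp only [← sum_mul, AddChar.sum_apply_eq_ite]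
    rw [sum_eq_single r (fun s _ hs => by
      rw [if_neg fun e : Additive.ofMul r + Additive.ofMul s⁻¹ = 0 =>
        hs (mul_inv_eq_one.1 (show r * s⁻¹ = 1 from e)).symm, zero_mul])
      (by simp)]
    simp
  exact h (mul_left_cancel₀ (Nat.cast_ne_zero.2 Fintype.card_ne_zero) ((k s).trans (k 1).symm))

variable {Ω : Type v} [Fintype Ω]

theorem dot_self (v : Ω → ℂ) : star v ⬝ᵥ v = ((∑ x, ‖v x‖ ^ 2 : ℝ) : ℂ) := by
  simp [dotProduct, Complex.conj_mul']

theorem dot_mul (A : Matrix Ω Ω ℂ) (v : Ω → ℂ) :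
    star v ⬝ᵥ ((Aᴴ * A) *ᵥ v) = ((∑ x, ‖(A *ᵥ v) x‖ ^ 2 : ℝ) : ℂ) := by
  rw [← dot_self, ← mulVec_mulVec, dotProduct_mulVec, star_mulVec]

theorem cs (a b : Ω → ℂ) : ‖∑ x, a x * b x‖ ^ 2 ≤ (∑ x, ‖a x‖ ^ 2) * ∑ x, ‖b x‖ ^ 2 := by
  refine le_trans ?_ (sum_mul_sq_le_sq_mul_sq _ _ _)
  gcongr
  exact (norm_sum_le _ _).trans (by simp)

/-- The operator norm is bounded by the largest eigenvalue. -/
theorem op_le {A : Matrix Ω Ω ℂ} {c : ℝ}
    (h : ∀ (μ : ℝ) (v : Ω → ℂ), v ≠ 0 → (Aᴴ * A) *ᵥ v = (μ : ℂ) • v → μ ≤ c) (v : Ω → ℂ) :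
    ∑ x, ‖(A *ᵥ v) x‖ ^ 2 ≤ c * ∑ x, ‖v x‖ ^ 2 := by
  classical
  have hM : ((c : ℂ) • (1 : Matrix Ω Ω ℂ) - Aᴴ * A).IsHermitian := by
    simp [IsHermitian, conjTranspose_mul]
  have p := (hM.posSemidef_iff_eigenvalues_nonneg.2 fun j => by
    have e := hM.mulVec_eigenvectorBasis j
    have := h (c - hM.eigenvalues j) (hM.eigenvectorBasis j) (fun e =>
      hM.eigenvectorBasis.orthonormal.ne_zero j (by ext i; exact congrFun e i)) (by
      rw [sub_mulVec, smul_mulVec, one_mulVec, sub_eq_iff_eq_add, ← sub_eq_iff_eq_add'] at e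
      rw [← e, Complex.ofReal_sub, sub_smul]; rfl)
    simpa using this).dotProduct_mulVec_nonneg v
  rw [sub_mulVec, smul_mulVec, one_mulVec, dotProduct_sub, dotProduct_smul, dot_self, dot_mul,
    smul_eq_mul, ← Complex.ofReal_mul, ← Complex.ofReal_sub, Complex.zero_le_real] at p
  exact sub_nonneg.1 p

variable {G : Type w} [Group G] [Fintype G] [MulAction G Ω] {P : Subgroup G} [Fintype P]

theorem const (h : ∀ χ, IsIrrCharacter G χ → classInner (H11.permChar G Ω) χ ≠ 0 →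
      ∀ x ∈ P, ∀ y ∈ P, x ≠ 1 → y ≠ 1 → χ x = χ y) {A : Matrix Ω Ω ℂ} (hA : IsInv G A) {x y : G}
    (hx : x ∈ P) (hy : y ∈ P) (x1 : x ≠ 1) (y1 : y ≠ 1) : trc G A x = trc G A y := by
  rw [hA.trc_eq_sum, hA.trc_eq_sum]
  refine sum_congr rfl fun χ _ => ?_
  by_cases e : classInner (H11.permChar G Ω) χ = 0
  · rw [hA.coef_eq_zero χ.2 e, zero_mul, zero_mul]
  · rw [h χ χ.2 e x hx y hy x1 y1]

theorem frob {A : Matrix Ω Ω ℂ} (hA : IsInv G A) (l : P →* ℂ) (hl : ∀ s, conj (l s) = l s⁻¹) :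
    ((∑ x, ∑ y, ‖∑ s : P, l s * A x ((s : G) • y)‖ ^ 2 : ℝ) : ℂ) =
      Fintype.card P * ∑ s : P, l s * trc G (Aᴴ * A) s := by
  have k : ∀ (s r : P) y, ∑ x, conj (l s * A x ((s : G) • y)) * (l (s * r) * A x ((↑(s * r) : G) • y)) =
      l r * (Aᴴ * A) y ((r : G) • y) := fun s r y => by
    rw [← (hA.conjTranspose.mul hA) s, mul_apply, mul_sum]
    refine sum_congr rfl fun x _ => ?_
    have : l s⁻¹ * l (s * r) = l r := by rw [← map_mul, inv_mul_cancel_left]
    rw [map_mul, hl, ← this, Subgroup.coe_mul, mul_smul, conjTranspose_apply]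
    simp only [RCLike.star_def]
    ring
  simp only [Complex.ofReal_sum, Complex.ofReal_pow, ← Complex.conj_mul', map_sum, sum_mul_sum]
  calc _ = ∑ s : P, ∑ r : P, ∑ y, ∑ x,
        conj (l s * A x ((s : G) • y)) * (l (s * r) * A x ((↑(s * r) : G) • y)) := by
        rw [sum_comm]
        simp only [sum_comm (s := (univ : Finset Ω)) (t := (univ : Finset P))]
        refine sum_congr rfl fun s _ => ?_
        rw [← Equiv.sum_comp (Equiv.mulLeft s)]
        rfl
    _ = _ := by simp only [k]; simp [trc, mul_sum]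

theorem shift {A : Matrix Ω Ω ℂ} (hA : IsInv G A) (g : G) (w : Ω → ℂ) :
    (A *ᵥ fun x => w (g • x)) = fun x => (A *ᵥ w) (g • x) := funext fun x => by
  simp only [mulVec, dotProduct]
  rw [← Equiv.sum_comp (MulAction.toPerm g) fun y => A (g • x) y * w y]
  simp [hA g]

section Main

variable {m k : ℕ} {A : Matrix Ω Ω ℂ} (hA : IsInv G A) (A01 : ∀ x y, A x y = 0 ∨ A x y = 1)
  (row : ∀ x, ∑ y, A x y = k) (cΩ : Fintype.card Ω = m * Fintype.card P)
  (h : ∀ χ, IsIrrCharacter G χ → classInner (H11.permChar G Ω) χ ≠ 0 →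
      ∀ x ∈ P, ∀ y ∈ P, x ≠ 1 → y ≠ 1 → χ x = χ y)
include hA A01 row cΩ h

theorem frob_le (l : P →* ℂ) (hl : ∀ s, conj (l s) = l s⁻¹) {r : P} (hr : l r ≠ 1) :
    ∑ x, ∑ y, ‖∑ s : P, l s * A x ((s : G) • y)‖ ^ 2 ≤ (Fintype.card P : ℝ) ^ 2 * (m * k) := by
  classical
  have r1 : r ≠ 1 := by rintro rfl; exact hr (map_one l)
  have l0 : ∑ s, l s = 0 := sum_hom_units_eq_zero l (by rintro rfl; exact hr rfl)
  have e1 : ∑ s : P, l s * trc G (Aᴴ * A) s = trc G (Aᴴ * A) 1 - trc G (Aᴴ * A) r := by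
    have : ∑ s : P, l s * (trc G (Aᴴ * A) s - trc G (Aᴴ * A) r) =
        trc G (Aᴴ * A) 1 - trc G (Aᴴ * A) r := by
      rw [sum_eq_single 1 (fun s _ hs => by
        rw [const h (hA.conjTranspose.mul hA) s.2 r.2 (by simpa using hs) (by simpa using r1),
          sub_self, mul_zero]) (by simp)]
      simp
    rw [← this]
    simp [mul_sub, ← sum_mul, l0]
  have e2 : trc G (Aᴴ * A) 1 = m * Fintype.card P * k := by
    simp only [trc, mul_apply, one_smul, conjTranspose_apply]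
    rw [sum_comm, sum_congr rfl fun x _ => (sum_congr rfl fun y _ => (by
      rcases A01 x y with e | e <;> simp [e] : star (A x y) * A x y = A x y)).trans (row x)]
    simp [cΩ]
  have e3 : 0 ≤ trc G (Aᴴ * A) r := sum_nonneg fun y _ => sum_nonneg fun x _ => by
    rcases A01 x y with e | e <;> rcases A01 x ((r : G) • y) with e' | e' <;> simp [e, e']
  rw [← Complex.real_le_real, frob hA l hl, e1, e2]
  push_cast
  rw [← sub_nonneg]
  convert mul_nonneg (Nat.cast_nonneg (α := ℂ) (Fintype.card P)) e3 using 1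
  ring

theorem eig_le (ab : ∀ a ∈ P, ∀ b ∈ P, a * b = b * a) (tr : ∀ x y : Ω, ∃ g ∈ Subgroup.normalClosure (P : Set G), g • x = y) {c : ℂ}
    (hc : Fintype.card Ω * c = k) (μ : ℝ) (v : Ω → ℂ) (v0 : v ≠ 0)
    (hv : ((A - of fun _ _ => c)ᴴ * (A - of fun _ _ => c)) *ᵥ v = (μ : ℂ) • v) : μ ≤ m * k := by
  classical
  set A' := A - of fun _ _ => c with hA'
  have i1 : IsInv G A' := hA.sub (isInv_const c)
  have i2 := i1.conjTranspose.mul i1
  have W : ∀ (g : G) w, (A'ᴴ * A') *ᵥ w = (μ : ℂ) • w →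
      (A'ᴴ * A') *ᵥ (fun x => w (g • x)) = (μ : ℂ) • fun x => w (g • x) := fun g w hw => by
    rw [shift i2, hw]; rfl
  let K : Subgroup G :=
    { carrier := {g | ∀ w, (A'ᴴ * A') *ᵥ w = (μ : ℂ) • w → ∀ x, w (g • x) = w x}
      one_mem' := fun w _ x => by rw [one_smul]
      mul_mem' := fun {a b} ha hb w hw x => by rw [mul_smul, ha w hw, hb w hw]
      inv_mem' := fun {a} ha w hw x => by rw [← ha w hw, smul_inv_smul] }
  by_cases hK : P ≤ K
  · haveI : K.Normal := ⟨fun a ha g w hw x => by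
      rw [mul_smul, mul_smul]
      exact (ha _ (W g w hw) _).trans (by rw [smul_inv_smul])⟩
    have z : A' *ᵥ v = 0 := funext fun x => by
      have : v = fun _ => v x := funext fun y => by
        obtain ⟨g, hg, rfl⟩ := tr x y
        exact Subgroup.normalClosure_le_normal hK hg v hv x
      rw [this]
      simp [hA', mulVec, dotProduct, ← sum_mul, row, hc]
    rw [← mulVec_mulVec, z, mulVec_zero, eq_comm, smul_eq_zero, or_iff_left v0,
      Complex.ofReal_eq_zero] at hv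
    rw [hv]; positivity
  obtain ⟨s0, hs0, n⟩ := SetLike.not_le_iff_exists.1 hK
  obtain ⟨w, hw, x0, n⟩ : ∃ w, (A'ᴴ * A') *ᵥ w = (μ : ℂ) • w ∧ ∃ x, w (s0 • x) ≠ w x := by
    by_contra hn
    exact n fun w hw x => by_contra fun e => hn ⟨w, hw, x, e⟩
  obtain ⟨l, ⟨r, hr⟩, hl, f0⟩ := exists_char (P := P) (fun a b => Subtype.ext (ab _ a.2 _ b.2))
    (φ := fun s => w ((s : G) • x0)) (s := ⟨s0, hs0⟩) (by simpa using n)
  set f : Ω → ℂ := fun y => ∑ s : P, l s⁻¹ * w ((s : G) • y) with hf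
  have f1 : ∀ (r : P) y, f ((r : G) • y) = l r * f y := fun r y => by
    simp only [hf, mul_sum]
    rw [← Equiv.sum_comp (Equiv.mulRight r) fun s : P => l r * (l s⁻¹ * w ((s : G) • y))]
    refine sum_congr rfl fun s _ => ?_
    simp [mul_smul, ← mul_assoc, ← map_mul]
  have f2 : (A'ᴴ * A') *ᵥ f = (μ : ℂ) • f := by
    have : f = ∑ s : P, l s⁻¹ • fun y => w ((s : G) • y) := funext fun y => by simp [hf]
    rw [this, mulVec_sum, smul_sum]
    exact sum_congr rfl fun s _ => by rw [mulVec_smul, W _ w hw, smul_comm]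
  have f3 : ∑ y, f y = 0 := by
    have := Equiv.sum_comp (MulAction.toPerm (r : G)) f
    simp only [MulAction.toPerm_apply, f1, ← mul_sum] at this
    exact (mul_left_eq_self₀.1 this).resolve_left hr
  have f4 : ∀ x, (Fintype.card P : ℂ) * (A' *ᵥ f) x =
      ∑ y, (∑ s : P, l s * A x ((s : G) • y)) * f y := fun x => by
    have : ∀ s : P, ∑ y, l s * A x ((s : G) • y) * f y = (A' *ᵥ f) x := fun s => by
      simp only [hA', mulVec, dotProduct, Matrix.sub_apply, of_apply, sub_mul, sum_sub_distrib,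
        ← mul_sum, f3, mul_zero, sub_zero]
      rw [← Equiv.sum_comp (MulAction.toPerm (s : G)) fun y => A x y * f y]
      exact sum_congr rfl fun y _ => by simp only [MulAction.toPerm_apply, f1]; ring
    simp only [sum_mul]
    rw [sum_comm]
    simp [this]
  have f5 : ∑ x, ‖(A' *ᵥ f) x‖ ^ 2 = μ * ∑ x, ‖f x‖ ^ 2 := by
    have := dot_mul A' f
    rw [f2, dotProduct_smul, dot_self, smul_eq_mul] at this
    exact_mod_cast this.symm
  have f6 : 0 < ∑ x, ‖f x‖ ^ 2 :=
    sum_pos' (fun _ _ => by positivity) ⟨x0, mem_univ _, pow_pos (norm_pos_iff.2 f0) 2⟩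
  have f7 : (Fintype.card P : ℝ) ^ 2 * (μ * ∑ x, ‖f x‖ ^ 2) ≤
      (Fintype.card P : ℝ) ^ 2 * (m * k) * ∑ x, ‖f x‖ ^ 2 := by
    refine le_trans ?_ (mul_le_mul_of_nonneg_right (frob_le hA A01 row cΩ h l hl hr) f6.le)
    rw [← f5, mul_sum, sum_mul]
    refine sum_le_sum fun x _ => le_trans (le_of_eq ?_) (cs _ _)
    rw [← f4, norm_mul, Complex.norm_natCast, mul_pow]
  rw [mul_assoc] at f7
  exact le_of_mul_le_mul_right (le_of_mul_le_mul_left f7
    (pow_pos (Nat.cast_pos.2 Fintype.card_pos) 2)) f6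

end Main

theorem orb_le {A : Matrix Ω Ω ℂ} (hA : IsInv G A) {c : ℝ}
    (h : ∀ v : Ω → ℂ, ∑ x, ‖(A *ᵥ v) x‖ ^ 2 ≤ c * ∑ x, ‖v x‖ ^ 2)
    (fr : ∀ s ∈ P, ∀ x : Ω, s • x = x → s = 1) (x : Ω) :
    ‖∑ s : P, A x ((s : G) • x)‖ ^ 2 ≤ c := by
  classical
  have inj : Function.Injective fun s : P => (s : G) • x := fun a b e => by
    have := fr _ (b⁻¹ * a).2 x (by
      rw [Subgroup.coe_mul, mul_smul, Subgroup.coe_inv, inv_smul_eq_iff]; exact e)
    exact (inv_mul_eq_one.1 (Subtype.ext this)).symm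
  have h1 := h fun y => if y ∈ univ.image fun s : P => (s : G) • x then 1 else 0
  have h2 : ∀ r : P, (A *ᵥ fun y => if y ∈ univ.image fun s : P => (s : G) • x then 1 else 0)
      ((r : G) • x) = ∑ s : P, A x ((s : G) • x) := fun r => by
    simp only [mulVec, dotProduct, mul_ite, mul_one, mul_zero, sum_ite_mem, univ_inter]
    rw [sum_image fun a _ b _ e => inj e, ← Equiv.sum_comp (Equiv.mulLeft r)]
    exact sum_congr rfl fun s _ => by simp [mul_smul, hA r]
  have h3 := (sum_le_sum_of_subset_of_nonneg (subset_univ (univ.image fun s : P => (s : G) • x))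
    fun _ _ _ => by positivity).trans h1
  rw [sum_image fun a _ b _ e => inj e] at h3
  simp only [h2, apply_ite norm, norm_one, norm_zero, ite_pow, one_pow, ne_eq, OfNat.ofNat_ne_zero,
    not_false_eq_true, zero_pow, sum_ite_mem, univ_inter, sum_const, card_image_of_injective _ inj,
    card_univ, nsmul_eq_mul, mul_one] at h3
  rw [mul_comm] at h3
  exact le_of_mul_le_mul_right h3 (Nat.cast_pos.2 Fintype.card_pos)

/-- **SPEC** -/
theorem spec : SpecStmt.{v, w} := by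
  intro G Ω _ _ _ _ P m t k β Γ ab cP t2 fr cΩ m1 tr h inv irr row s hs s1 hβ
  classical
  rw [Nat.card_eq_fintype_card] at cP cΩ
  subst cP
  set t := Fintype.card P with ht
  let A : Matrix Ω Ω ℂ := of fun x y => if Γ x y then 1 else 0
  have hA : IsInv G A := fun g x y => by
    simp only [A, of_apply]
    congr 1
    exact propext ⟨fun e => by simpa using inv g⁻¹ _ _ e, inv g x y⟩
  have cnt : ∀ p : Ω → Prop, (∑ y, if p y then 1 else 0 : ℂ) = {y | p y}.ncard := fun p => by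
    rw [sum_boole, Set.ncard_eq_toFinset_card', Set.toFinset_ofPred]
  have row' : ∀ x, ∑ y, A x y = k := fun x => (cnt _).trans (by rw [row])
  have t0 : (t : ℂ) ≠ 0 := Nat.cast_ne_zero.2 (by omega)
  have m0 : (m : ℂ) ≠ 0 := Nat.cast_ne_zero.2 (by omega)
  have hc : (Fintype.card Ω : ℂ) * (k / (m * t)) = k := by
    rw [cΩ]; push_cast; field_simp
  have k1 := orb_le (hA.sub (isInv_const (k / (m * t) : ℂ))) (op_le (eig_le hA
    (fun x y => by simp only [A, of_apply]; split_ifs <;> simp) row' cΩ h ab tr hc)) fr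
  have k2 : ∑ r : P, trc G A r = (t - 1) * (β * t) := by
    have : ∑ r : P, (trc G A s - trc G A r) = trc G A s := by
      rw [sum_eq_single 1 (fun r _ hr => by
        rw [const h hA hs r.2 s1 (by simpa using hr), sub_self]) (by simp)]
      simp [trc, A, irr]
    have e : trc G A s = β * t := (cnt _).trans (by rw [hβ]; simp)
    rw [sum_sub_distrib, e, sum_const, card_univ, nsmul_eq_mul] at this
    linear_combination -this
  have k3 : ∑ x, (1 : ℂ) * ∑ r : P,
      (A - of fun _ _ => (k / (m * t) : ℂ) : Matrix Ω Ω ℂ) x ((r : G) • x) =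
      t * (((β : ℤ) * (t - 1) - k : ℤ) : ℂ) := by
    simp only [one_mul, Matrix.sub_apply, of_apply]
    rw [sum_comm]
    simp only [sum_sub_distrib, sum_const, card_univ, nsmul_eq_mul, hc]
    rw [show ∑ r : P, ∑ x, A x ((r : G) • x) = _ from k2]
    push_cast
    ring
  have k4 := (cs (fun _ => 1) _).trans (mul_le_mul_of_nonneg_left (sum_le_sum fun x _ => k1 x)
    (by positivity))
  rw [k3, norm_mul, Complex.norm_natCast, Complex.norm_intCast, mul_pow, sq_abs] at k4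
  simp only [norm_one, one_pow, sum_const, card_univ, nsmul_eq_mul, mul_one, cΩ] at k4
  have k5 : (t : ℝ) ^ 2 * (((β : ℤ) * (t - 1) - k : ℤ) : ℝ) ^ 2 ≤ (t : ℝ) ^ 2 * (m ^ 3 * k) := by
    refine k4.trans (le_of_eq ?_)
    push_cast
    ring
  exact_mod_cast le_of_mul_le_mul_left k5 (by positivity)

end Cfsg.Agent.H77.Sg.H60Spec
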