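import Cfsg.Agent.H31.HermGrow

/-! Frames of centres of unitary transvections over the field with four elements. -/

set_option autoImplicit false
set_option linter.unusedSectionVars false

namespace Cfsg.Agent.H60.TU

open Module H31 Finset

variable {F : Type*} [Field F] {σ : F →+* F} {V : Type*} [AddCommGroup V] [Module F V]
  {B : V →ₛₗ[σ] V →ₗ[F] F} {S : V → Prop} {m : ℕ}

/-- a set of centres over the field with four elements -/
structure Cen (B : V →ₛₗ[σ] V →ₗ[F] F) (S : V → Prop) : Prop where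
  herm : IsHerm B
  f2 : ∀ b, σ b = b → b = 0 ∨ b = 1
  zero : S 0
  iso : ∀ {u}, S u → B u u = 0
  smul : ∀ {u}, S u → ∀ a : F, S (a • u)
  tv : ∀ {u v}, S u → S v → S (v + B u v • u)

/-- linear combinations -/
abbrev L (e : Fin m → V) : (Fin m → F) →ₗ[F] V := Fintype.linearCombination F e

/-- the number of non-zero coordinates -/
noncomputable def wt (x : Fin m → F) : ℕ := by
  classical exact (univ.filter fun i => x i ≠ 0).card

/-- orthonormal vectors all of whose swaps are present -/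
structure Fr (B : V →ₛₗ[σ] V →ₗ[F] F) (S : V → Prop) (e : Fin m → V) : Prop where
  on : IsON B e
  sw : ∀ i j, i ≠ j → ∀ a : F, a ≠ 0 → S (e i + a • e j)

theorem wt_le (x : Fin m → F) : wt x ≤ m := by
  classical
  simpa [wt] using card_filter_le (univ : Finset (Fin m)) fun i => x i ≠ 0

theorem wt_eq (x : Fin m → F) [DecidableEq F] : wt x = ∑ i, if x i = 0 then 0 else 1 := by
  unfold wt
  rw [card_filter]
  exact sum_congr rfl fun i _ => by by_cases h : x i = 0 <;> simp [h]

theorem eq_zero_of_wt {x : Fin m → F} (h : wt x = 0) : x = 0 := by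
  classical
  rw [wt_eq, sum_eq_zero_iff] at h
  exact funext fun i => by simpa using h i (mem_univ _)

theorem ne_zero_of_wt {x : Fin m → F} (h : wt x = m) (i : Fin m) : x i ≠ 0 := by
  classical
  have : (univ.filter fun i => x i ≠ 0) = univ := eq_univ_of_card _ (by simpa [wt] using h)
  exact (mem_filter.1 (this.ge (mem_univ i))).2

theorem exists_zero_of_wt {x : Fin m → F} (h : wt x < m) : ∃ i, x i = 0 := by
  classical
  by_contra H
  push Not at H
  simp [wt_eq, H] at h

theorem L_single (e : Fin m → V) (i : Fin m) (a : F) : L e (Pi.single i a) = a • e i := by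
  simp [L]

theorem B_L {e : Fin m → V} (h : IsON B e) (i : Fin m) (x : Fin m → F) : B (e i) (L e x) = x i := by
  simp [L, Fintype.linearCombination_apply, h i]

theorem L_perp {e : Fin m → V} {r : V} (hr : ∀ i, B (e i) r = 0) (x : Fin m → F) :
    B (L e x) r = 0 := by
  simp [L, Fintype.linearCombination_apply, hr]

theorem exists_L {e : Fin m → V} (h : IsON B e) (w : V) :
    ∃ (x : Fin m → F) (r : V), (∀ i, B (e i) r = 0) ∧ w = L e x + r :=
  ⟨fun i => B (e i) w, w - L e fun i => B (e i) w, fun i => by rw [map_sub, B_L h, sub_self],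
    by abel⟩

theorem L_mem (e : Fin m → V) (i : Fin m) : e i ∈ LinearMap.range (L e : _ →ₗ[F] V) :=
  ⟨Pi.single i 1, by rw [L_single, one_smul]⟩

theorem finrank_L {e : Fin m → V} (h : IsON B e) :
    finrank F (LinearMap.range (L e : _ →ₗ[F] V)) = m := by
  rw [LinearMap.finrank_range_of_inj fun x y hxy => funext fun i => by
    rw [← B_L h i x, hxy, B_L h]]
  simp

theorem nondeg_L (hB : IsHerm B) {e : Fin m → V} (h : IsON B e) :
    NondegOn B (LinearMap.range (L e : _ →ₗ[F] V)) := by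
  rintro _ ⟨x, rfl⟩ hx
  rw [show x = 0 from funext fun i => (B_L h i x).symm.trans (hB.flip_zero (hx _ (L_mem e i))),
    map_zero]

theorem range_L [FiniteDimensional F V] {e : Fin m → V} (h : IsON B e) {E : Submodule F V}
    (he : ∀ i, e i ∈ E) (hE : finrank F E = m) : LinearMap.range (L e : _ →ₗ[F] V) = E :=
  Submodule.eq_of_le_of_finrank_eq (by
    rintro _ ⟨x, rfl⟩
    rw [Fintype.linearCombination_apply]
    exact E.sum_mem fun i _ => E.smul_mem _ (he i)) (by rw [finrank_L h, hE])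

/-- no proper subspace is invariant under the transvections -/
def Ir (B : V →ₛₗ[σ] V →ₗ[F] F) (S : V → Prop) : Prop :=
  ∀ W : Submodule F V, (∀ u, S u → ∀ x ∈ W, B u x ≠ 0 → u ∈ W) → W = ⊥ ∨ W = ⊤

theorem Ir.mixed (h : Ir B S) (hB : IsHerm B) {e : Fin m → V} (he : IsON B e) (h0 : 0 < m) (hm : m < finrank F V) :
    ∃ (x : Fin m → F) (r : V), x ≠ 0 ∧ r ≠ 0 ∧ (∀ i, B (e i) r = 0) ∧ S (L e x + r) := by
  by_contra H
  push Not at H
  have h1 := finrank_L he
  rcases h (LinearMap.range (L e)) (fun u hu y hy e1 => by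
    obtain ⟨x, r, hr, rfl⟩ := exists_L he u
    obtain ⟨y, rfl⟩ := hy
    by_contra e2
    refine H x r (fun e3 => e1 ?_) (fun e3 => e2 ⟨x, by simp [e3]⟩) hr hu
    rw [e3, map_zero, zero_add, hB.flip_zero (L_perp hr y)]) with e1 | e1
  · rw [e1, finrank_bot] at h1
    omega
  · rw [e1, finrank_top] at h1
    omega

theorem Ir.span [FiniteDimensional F V] (h : Ir B S) (hB : IsHerm B) (h2 : 2 ≤ finrank F V) {r : V}
    (hr : r ≠ 0) : ∃ w, S w ∧ B r w ≠ 0 := by
  by_contra H
  push Not at H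
  have h1 := hB.finrank_add_finrank_perp (F ∙ r)
  rw [finrank_span_singleton hr] at h1
  rcases h (perp B (F ∙ r)) (fun u hu _ _ _ => mem_perp_span_singleton.2 (H u hu)) with e | e
  · rw [e, finrank_bot] at h1
    omega
  · rw [e, finrank_top] at h1
    omega

namespace Cen

variable (h : Cen B S)
include h

theorem two : (2 : F) = 0 := by
  rcases h.f2 (-1) (by simp) with e | e
  · simp at e
  · linear_combination -e

theorem charP : CharP F 2 := CharTwo.of_one_ne_zero_of_two_eq_zero one_ne_zero h.two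

theorem nrm {a : F} (ha : a ≠ 0) : σ a * a = 1 := by
  rw [mul_comm]
  exact (h.f2 _ (h.herm.inv.norm_fixed a)).resolve_left (mul_ne_zero ha ((map_ne_zero σ).2 ha))

theorem cube {a : F} (ha : a ≠ 0) : a ^ 3 = 1 := by
  have h1 := h.nrm ha
  have h2 := h.two
  rcases h.f2 _ (h.herm.inv.trace_fixed a) with e | e
  · rcases h.f2 a (by linear_combination e - a * h2) with e | e
    · exact absurd e ha
    · simp [e]
  · grind

theorem sq (a : F) : σ a = a ^ 2 := by
  by_cases ha : a = 0
  · simp [ha]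
  · exact mul_right_cancel₀ ha (by rw [h.nrm ha, ← h.cube ha]; ring)

theorem exists_om : ∃ ω : F, ω ^ 2 = ω + 1 := by
  obtain ⟨a, ha⟩ := h.herm.inv.exists_trace_eq (map_one σ)
  exact ⟨a, by linear_combination ha - h.sq a - a * h.two⟩

theorem eq_one {x : V} (hx : B x x ≠ 0) : B x x = 1 :=
  (h.f2 _ (h.herm.norm_fixed x)).resolve_left hx

theorem N_L {e : Fin m → V} (he : IsON B e) (x : Fin m → F) : B (L e x) (L e x) = wt x := by
  classical
  rw [Fintype.linearCombination_apply, form_sum_sum he, wt_eq, Nat.cast_sum]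
  exact sum_congr rfl fun i _ => by by_cases e : x i = 0 <;> simp [e, h.nrm]

theorem even_wt {e : Fin m → V} (he : IsON B e) {x : Fin m → F} :
    B (L e x) (L e x) = 0 ↔ 2 ∣ wt x := by
  have := h.charP
  rw [h.N_L he, CharP.cast_eq_zero_iff F 2]

theorem N_add {e : Fin m → V} (he : IsON B e) {r : V} (hr : ∀ i, B (e i) r = 0) {x : Fin m → F}
    (hx : S (L e x + r)) : (B r r = 0 ∧ 2 ∣ wt x) ∨ (B r r = 1 ∧ ¬ 2 ∣ wt x) := by
  have h1 := h.iso hx
  rw [h.herm.norm_add_of_perp (L_perp hr x)] at h1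
  rw [← h.even_wt he]
  by_cases e1 : B r r = 0
  · exact Or.inl ⟨e1, by rwa [e1, add_zero] at h1⟩
  · exact Or.inr ⟨h.eq_one e1, fun e2 => e1 (by rwa [e2, zero_add] at h1)⟩

theorem fr_of {e : Fin m → V} (he : IsON B e) {E : Submodule F V} (hE : ∀ i, e i ∈ E)
    (hS : ∀ u ∈ E, B u u = 0 → S u) : Fr B S e :=
  ⟨he, fun i j hij a ha => hS _ (E.add_mem (hE i) (E.smul_mem _ (hE j))) (by
    rw [h.herm.norm_add_of_perp (by rw [smul_right, he, if_neg hij, mul_zero]), h.herm.norm_smul,
      he, he, if_pos rfl, if_pos rfl, mul_comm a, h.nrm ha]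
    linear_combination h.two)⟩

variable {e : Fin m → V} (he : Fr B S e) {r : V} (hr : ∀ i, B (e i) r = 0)
include he hr

theorem swp {i j : Fin m} (hij : i ≠ j) {a : F} (ha : a ≠ 0) {x : Fin m → F} (hx : S (L e x + r))
    {y : Fin m → F} (hi : y i = σ a * x j) (hj : y j = a * x i)
    (hk : ∀ k, k ≠ i → k ≠ j → y k = x k) : S (L e y + r) := by
  have h1 := h.tv (he.sw i j hij a ha) hx
  have h2 : B (e i + a • e j) (L e x + r) = x i + σ a * x j := by
    rw [add_left, smul_left, map_add, map_add, B_L he.on, B_L he.on, hr, hr, add_zero, add_zero]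
  have h3 : y = x + (x i + σ a * x j) • (Pi.single i 1 + Pi.single j a) := funext fun k => by
    by_cases e1 : k = i
    · subst e1
      simp only [Pi.add_apply, Pi.smul_apply, Pi.single_eq_same, Pi.single_eq_of_ne hij, hi,
        smul_eq_mul]
      linear_combination -x k * h.two
    by_cases e2 : k = j
    · subst e2
      simp only [Pi.add_apply, Pi.smul_apply, Pi.single_eq_same, Pi.single_eq_of_ne e1, hj,
        smul_eq_mul]
      linear_combination -x k * h.two - x k * h.nrm ha
    simp [hk k e1 e2, Pi.single_eq_of_ne e1, Pi.single_eq_of_ne e2]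
  rw [h3, map_add, map_smul, map_add, L_single, L_single, one_smul, add_right_comm, ← h2]
  exact h1

theorem perm (π : Equiv.Perm (Fin m)) : ∀ x : Fin m → F, S (L e x + r) → S (L e (x ∘ π) + r) := by
  induction π using Equiv.Perm.swap_induction_on' with
  | one => exact fun x hx => hx
  | mul_swap f i j hij ih =>
    exact fun x hx => h.swp he hr hij one_ne_zero (ih x hx) (by simp) (by simp)
      fun k h1 h2 => by simp [Equiv.swap_apply_of_ne_of_ne h1 h2]

theorem tor (z : Fin m) {d : Fin m → F} (hd : ∏ i, d i = 1) {x : Fin m → F}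
    (hx : S (L e x + r)) : S (L e (d * x) + r) := by
  let A : Submonoid (Fin m → F) :=
    { carrier := {d | ∀ x, S (L e x + r) → S (L e (d * x) + r)}
      mul_mem' := fun {a b} ha hb x hx => by rw [mul_assoc]; exact ha _ (hb x hx)
      one_mem' := fun x hx => by rwa [one_mul] }
  have h0 : ∀ i, d i ≠ 0 := fun i e => by
    rw [prod_eq_zero (mem_univ i) e] at hd
    exact zero_ne_one hd
  have h1 : ∀ i, Pi.mulSingle i (d i) * Pi.mulSingle z (d i)⁻¹ ∈ A := fun i => by
    by_cases e : i = z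
    · rw [e, ← Pi.mulSingle_mul, mul_inv_cancel₀ (h0 z), Pi.mulSingle_one]
      exact A.one_mem
    intro x hx
    refine h.swp he hr (Ne.symm e) (h0 i) (h.perm he hr (Equiv.swap i z) x hx) ?_ ?_
      fun k h1 h2 => ?_
    · simp [Ne.symm e, eq_inv_of_mul_eq_one_left (h.nrm (h0 i))]
    · simp [e]
    · simp [h1, h2, Equiv.swap_apply_of_ne_of_ne h2 h1]
  have h2 := A.prod_mem (t := univ) fun i _ => h1 i
  rw [prod_mul_distrib, univ_prod_mulSingle, show ∏ i, (Pi.mulSingle z (d i)⁻¹ : Fin m → F) =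
    Pi.mulSingle z (∏ i, (d i)⁻¹) from (map_prod (MonoidHom.mulSingle (fun _ => F) z) _ _).symm,
    prod_inv_distrib, hd, inv_one, Pi.mulSingle_one, mul_one] at h2
  exact h2 x hx

/-- vectors of the same non-maximal weight are equivalent -/
theorem orb {x y : Fin m → F} (hx : S (L e x + r)) (hw : wt x = wt y) (hm : wt y < m) :
    S (L e y + r) := by
  classical
  obtain ⟨π, hπ⟩ := Equiv.Perm.exists_map_finset_eq (univ.filter fun i => y i ≠ 0)
    (univ.filter fun i => x i ≠ 0) (by unfold wt at hw; convert hw.symm)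
  have h1 : ∀ i, x (π i) = 0 ↔ y i = 0 := fun i => by
    have : π i ∈ (univ.filter fun i => y i ≠ 0).map π.toEmbedding ↔
      π i ∈ univ.filter fun i => x i ≠ 0 := by rw [hπ]
    simpa [not_iff_not] using this.symm
  obtain ⟨z, hz⟩ := exists_zero_of_wt hm
  let d : Fin m → F := fun i => if y i = 0 then 1 else y i / x (π i)
  have h2 : ∏ i ∈ univ.erase z, d i ≠ 0 := prod_ne_zero_iff.2 fun i _ => by
    by_cases e : y i = 0 <;> simp [d, e, h1]
  have := h.tor he hr z (d := Function.update d z (∏ i ∈ univ.erase z, d i)⁻¹) (by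
    rw [prod_update_of_mem (mem_univ _), sdiff_singleton_eq_erase, inv_mul_cancel₀ h2])
    (h.perm he hr π x hx)
  convert this using 3
  ext i
  by_cases e : y i = 0
  · simp [e, (h1 i).2 e]
  · have : i ≠ z := fun e' => e (e' ▸ hz)
    simp [this, d, e, div_mul_cancel₀ _ (fun e' => e ((h1 i).1 e'))]

omit hr in
theorem of_wt_le (hm : 3 ≤ m) {x : Fin m → F} (h2 : 2 ∣ wt x) (h3 : wt x < 4) : S (L e x) := by
  classical
  by_cases h0 : wt x = 0
  · rw [eq_zero_of_wt h0, map_zero]
    exact h.zero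
  obtain ⟨k, rfl⟩ : ∃ k, m = k + 2 := ⟨m - 2, by omega⟩
  have := h.orb he (r := 0) (by simp) (x := Pi.single 0 1 + Pi.single 1 1) (y := x) (by
    simpa [L_single] using he.sw 0 1 (by simp) 1 one_ne_zero) (by
    rw [wt_eq, Fin.sum_univ_succ, Fin.sum_univ_succ, show wt x = 2 by omega]
    simp [Fin.ext_iff]) (by omega)
  rwa [add_zero] at this

omit hr in
/-- one centre of weight four gives all -/
theorem full (hm : m = 4 ∨ m = 5) {x : Fin m → F} (hx : S (L e x)) (h4 : wt x = 4)
    (y : Fin m → F) (hy : 2 ∣ wt y) : S (L e y) := by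
  by_cases h3 : wt y < 4
  · exact h.of_wt_le he (by omega) hy h3
  have h5 := wt_le y
  rcases hm with rfl | rfl
  · have hx0 := ne_zero_of_wt h4
    have hy0 := ne_zero_of_wt (show wt y = 4 by omega)
    have h6 : ∏ i, y i / x i ≠ 0 := prod_ne_zero_iff.2 fun i _ => div_ne_zero (hy0 i) (hx0 i)
    have := h.smul (h.tor he (r := 0) (by simp) 0 (d := fun i => (∏ i, y i / x i)⁻¹ * (y i / x i))
      (by rw [prod_mul_distrib, prod_const, card_univ, Fintype.card_fin, pow_succ,
        h.cube (inv_ne_zero h6), one_mul, inv_mul_cancel₀ h6]) (x := x) (by rwa [add_zero]))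
      (∏ i, y i / x i)
    rw [add_zero, ← map_smul] at this
    convert this using 2
    ext i
    simp only [Pi.smul_apply, Pi.mul_apply, smul_eq_mul]
    rw [← mul_assoc, mul_inv_cancel_left₀ h6, div_mul_cancel₀ _ (hx0 i)]
  · simpa using h.orb he (r := 0) (by simp) (x := x) (y := y) (by rwa [add_zero]) (by omega)
      (by omega)

/-- extension of a frame -/
theorem ext (hm : 2 ≤ m) (h1 : B r r = 1) {x : Fin m → F} (hx : S (L e x + r)) (hw : wt x = 1) :
    Fr B S (Fin.cons r e : Fin (m + 1) → V) := by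
  classical
  have k : ∀ i (a : F), a ≠ 0 → S (r + a • e i) := fun i a ha => by
    have : wt (Pi.single i a : Fin m → F) = 1 := by
      rw [wt_eq, sum_eq_single i] <;> simp +contextual [ha]
    simpa [L_single, add_comm] using h.orb he hr hx (hw.trans this.symm) (by omega)
  refine ⟨h.herm.isON_cons.2 ⟨h1, fun i => h.herm.flip_zero (hr i), he.on⟩, fun i j => ?_⟩
  refine Fin.cases ?_ (fun i => ?_) i <;> refine Fin.cases ?_ (fun j => ?_) j <;> intro hij a ha
  · exact absurd rfl hij
  · exact k j a ha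
  · simpa [smul_smul, ha, add_comm] using h.smul (k i _ (inv_ne_zero ha)) a
  · exact he.sw i j (fun e => hij (by rw [e])) a ha

omit hr in
/-- a centre with a non-isotropic component outside a frame of size three -/
theorem step1 [FiniteDimensional F V] (hi : Ir B S) (hm : m = 3) (h4 : 4 ≤ finrank F V) :
    ∃ (x : Fin m → F) (r : V), (∀ i, B (e i) r = 0) ∧ B r r = 1 ∧ S (L e x + r) := by
  classical
  subst hm
  by_contra H
  push Not at H
  have k : ∀ (x : Fin 3 → F) r, (∀ i, B (e i) r = 0) → S (L e x + r) →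
      B r r = 0 ∧ (x ≠ 0 → wt x = 2) :=
    fun x r hr hx => by
      obtain ⟨h1, h2⟩ := (h.N_add he.on hr hx).resolve_right fun h1 => H x r hr h1.1 hx
      have := wt_le x
      exact ⟨h1, fun h0 => by have := mt eq_zero_of_wt h0; omega⟩
  obtain ⟨x, r, hx0, hr0, hr, hx⟩ := hi.mixed h.herm he.on (by omega) (by omega)
  obtain ⟨x', r', hx0', hr', hrr, hx'⟩ : ∃ (x' : Fin 3 → F) (r' : V), x' ≠ 0 ∧
      (∀ i, B (e i) r' = 0) ∧ B r r' ≠ 0 ∧ S (L e x' + r') := by
    obtain ⟨w, hw, hw'⟩ := hi.span h.herm (by omega) hr0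
    obtain ⟨x', r', hr', rfl⟩ := exists_L he.on w
    rw [map_add, h.herm.flip_zero (L_perp hr x'), zero_add] at hw'
    by_cases e0 : x' = 0
    · rw [e0, map_zero, zero_add] at hw
      have := h.tv hw hx
      rw [map_add, h.herm.flip_zero (L_perp hr' x), zero_add, add_assoc] at this
      refine ⟨x, _, hx0, fun i => by simp [hr, hr'], ?_, this⟩
      rw [map_add, (k x r hr hx).1, zero_add, smul_right]
      exact mul_ne_zero (h.herm.flip_ne_zero hw') hw'
    · exact ⟨x', r', e0, hr', hw', hw⟩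
  obtain ⟨ω, hω⟩ := h.exists_om
  have hω0 : ω ≠ 0 := fun e => by simp [e] at hω
  have h1 := h.orb he hr hx (y := ![1, 1, 0]) (by
    rw [(k x r hr hx).2 hx0]; simp [wt_eq, Fin.sum_univ_succ]) (by simp [wt_eq, Fin.sum_univ_succ])
  have h2 := h.orb he hr' hx' (y := ![ω * B r r', 0, 1]) (by
    rw [(k x' r' hr' hx').2 hx0']; simp [wt_eq, Fin.sum_univ_succ, hω0, hrr])
    (by simp [wt_eq, Fin.sum_univ_succ, hω0, hrr])
  have h3 := h.tv h1 h2
  rw [show B (L e ![(1 : F), 1, 0] + r) (L e ![ω * B r r', 0, 1] + r') = ω ^ 2 * B r r' by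
    rw [add_left, map_add, map_add, L_perp hr', h.herm.flip_zero (L_perp hr _),
      Fintype.linearCombination_apply, Fintype.linearCombination_apply, form_sum_sum he.on, hω]
    simp [Fin.sum_univ_succ, add_mul], smul_add, add_add_add_comm, ← map_smul, ← map_add] at h3
  have h5 := (k _ _ (fun i => by simp [hr, hr']) h3).1
  rw [h.herm.norm_add, (k _ _ hr' hx').1, isotropic_smul (k _ _ hr hx).1, smul_right,
    ← h.herm.symm r r', mul_assoc, mul_comm (B r r'), h.nrm hrr, h.sq] at h5
  have := h.two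
  grind

omit hr in
/-- a frame that spans -/
theorem final [FiniteDimensional F V] (hm : m = 4 ∨ m = 5) (hV : finrank F V = m) :
    (∀ u, B u u = 0 → S u) ∨ ∀ u, S u → ∀ i, ∃ (j : Fin m) (c : F), e i + B u (e i) • u = c • e j := by
  classical
  have k : ∀ u, ∃ x : Fin m → F, L e x = u := fun u =>
    (range_L he.on (E := ⊤) (fun _ => trivial) (by rw [finrank_top, hV])).ge trivial
  by_cases H : ∃ x : Fin m → F, S (L e x) ∧ wt x = 4
  · obtain ⟨x, hx, h4⟩ := H
    refine Or.inl fun u hu => ?_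
    obtain ⟨y, rfl⟩ := k u
    exact h.full he hm hx h4 y ((h.even_wt he.on).1 hu)
  refine Or.inr fun u hu i => ?_
  obtain ⟨x, rfl⟩ := k u
  rw [← h.herm.symm, B_L he.on]
  by_cases e0 : x i = 0
  · exact ⟨i, 1, by simp [e0]⟩
  have h1 := (h.even_wt he.on).1 (h.iso hu)
  have h2 := wt_le x
  have h3 : wt x ≠ 0 := fun e1 => e0 (by simp [eq_zero_of_wt e1])
  have h4 : wt x ≠ 4 := fun e1 => H ⟨x, hu, e1⟩
  have h5 : ((univ.filter fun k => x k ≠ 0).erase i).card = 1 := by
    rw [card_erase_of_mem (by simpa using e0)]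
    have : wt x = 2 := by omega
    unfold wt at this
    convert congrArg (· - 1) this
  obtain ⟨j, hj⟩ := card_eq_one.1 h5
  have h6 : j ≠ i := (mem_erase.1 (hj.ge (mem_singleton_self j))).1
  have h7 : x = Pi.single i (x i) + Pi.single j (x j) := funext fun k => by
    by_cases e1 : k = i
    · simp [e1, h6.symm]
    by_cases e2 : k = j
    · simp [e2, h6]
    by_contra e3
    exact e2 (mem_singleton.1 (hj.le (by simpa [e1, e2] using e3)))
  refine ⟨j, σ (x i) * x j, ?_⟩
  rw [show L e x = x i • e i + x j • e j by rw [h7, map_add, L_single, L_single, ← h7], smul_add,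
    smul_smul, h.nrm e0, smul_smul, ← add_assoc, one_smul, ← two_smul F, h.two, zero_smul, zero_add]

omit he hr in
/-- the case of the field with four elements -/
theorem main [Finite F] [FiniteDimensional F V] (hi : Ir B S) (hm : m = 4 ∨ m = 5)
    (hV : finrank F V = m) {E : Submodule F V} (hE : NondegOn B E) (h3 : finrank F E = 3)
    (hS : ∀ u ∈ E, B u u = 0 → S u) :
    (∃ E', NondegOn B E' ∧ 4 ≤ finrank F E' ∧ ∀ u ∈ E', B u u = 0 → S u) ∨ ∃ e : Fin m → V,
      Fr B S e ∧ ∀ u, S u → ∀ i, ∃ (j : Fin m) (c : F), e i + B u (e i) • u = c • e j := by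
  classical
  have fin : ∀ e : Fin m → V, Fr B S e → _ := fun e he => (h.final he hm hV).imp
    (fun h1 => (⟨⊤, h.herm.nondegOn_top, by rw [finrank_top]; omega, fun u _ => h1 u⟩ :
      ∃ E', NondegOn B E' ∧ 4 ≤ finrank F E' ∧ ∀ u ∈ E', B u u = 0 → S u))
    fun h1 => (⟨e, he, h1⟩ : ∃ e : Fin m → V, Fr B S e ∧
      ∀ u, S u → ∀ i, ∃ (j : Fin m) (c : F), e i + B u (e i) • u = c • e j)
  obtain ⟨a, ha, ha'⟩ := h.herm.exists_isON_of_nondegOn hE h3.ge
  obtain ⟨x, r, hr, hr1, hx⟩ := h.step1 (h.fr_of ha' ha hS) hi rfl (by omega)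
  have hu : L a x ∈ E := range_L ha' ha h3 ▸ ⟨x, rfl⟩
  have hrE : ∀ y ∈ E, B y r = 0 := by
    rw [← range_L ha' ha h3]
    rintro _ ⟨y, rfl⟩
    exact L_perp hr y
  have hu1 : B (L a x) (L a x) = 1 := h.eq_one fun e0 => by
    have := h.iso hx
    rw [h.herm.norm_add_of_perp (L_perp hr x), e0, hr1, zero_add] at this
    exact one_ne_zero this
  have hle := (Submodule.span_singleton_le_iff_mem _ _).2 hu
  have hn := nondegOn_span_singleton (B := B) (hu1 ▸ one_ne_zero : B (L a x) (L a x) ≠ 0)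
  have h5 := h.herm.finrank_inf_perp hn hle
  rw [finrank_span_singleton (fun e0 => by simp [e0] at hu1)] at h5
  obtain ⟨b, hb, hb'⟩ := h.herm.exists_isON_of_nondegOn (k := 2)
    (h.herm.nondegOn_inf_perp hn hE hle) (by omega)
  have hc : ∀ i, (Fin.cons (L a x) b : Fin 3 → V) i ∈ E := fun i => Fin.cases hu (fun i => (hb i).1) i
  have h6 := h.ext (h.fr_of (h.herm.isON_cons.2
    ⟨hu1, fun i => mem_perp_span_singleton.1 (hb i).2, hb'⟩) hc hS) (fun i => hrE _ (hc i))
    (by omega) hr1 (x := Pi.single 0 1) (by simpa [L_single] using hx)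
    (by simp [wt_eq, Fin.sum_univ_succ])
  generalize (Fin.cons r (Fin.cons (L a x) b) : Fin 4 → V) = e at h6
  rcases hm with rfl | rfl
  · exact fin e h6
  obtain ⟨y, s, -, hs0, hs, hy⟩ := hi.mixed h.herm h6.on (by omega) (by omega)
  obtain ⟨hs1, hy1⟩ := (h.N_add h6.on hs hy).resolve_left fun h7 => by
    have h8 := h.herm.finrank_add_finrank_perp (LinearMap.range (L e))
    rw [finrank_L h6.on] at h8
    have h9 : s ∈ perp B (LinearMap.range (L e)) := by
      rintro _ ⟨z, rfl⟩
      exact L_perp hs z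
    refine hs0 (h.herm.nondegOn_perp (nondeg_L h.herm h6.on) s h9 fun z hz => ?_)
    rw [← Submodule.eq_of_le_of_finrank_eq ((Submodule.span_singleton_le_iff_mem _ _).2 h9)
      (by rw [finrank_span_singleton hs0]; omega)] at hz
    obtain ⟨c, rfl⟩ := Submodule.mem_span_singleton.1 hz
    rw [smul_right, h7.1, mul_zero]
  by_cases h7 : wt y = 1
  · exact fin _ (h.ext h6 hs (by omega) hs1 hy h7)
  have h8 : wt y = 3 := by have := wt_le y; omega
  obtain ⟨ω, hω⟩ := h.exists_om
  have hω0 : ω ≠ 0 := fun e => by simp [e] at hω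
  have h9 := h.tv (h.orb h6 hs hy (y := ![1, 1, 1, 0]) (by
    rw [h8]; simp [wt_eq, Fin.sum_univ_succ]) (by simp [wt_eq, Fin.sum_univ_succ]))
    (h.orb h6 hs hy (y := ![ω, ω, 0, 1]) (by rw [h8]; simp [wt_eq, Fin.sum_univ_succ, hω0])
    (by simp [wt_eq, Fin.sum_univ_succ, hω0]))
  rw [show B (L e ![(1 : F), 1, 1, 0] + s) (L e ![ω, ω, 0, 1] + s) = 1 by
    rw [add_left, map_add, map_add, L_perp hs, h.herm.flip_zero (L_perp hs _),
      Fintype.linearCombination_apply, Fintype.linearCombination_apply, form_sum_sum h6.on, hs1]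
    simp [Fin.sum_univ_succ, ← two_mul, h.two], one_smul, add_add_add_comm, ← map_add,
      ← two_smul F, h.two, zero_smul, add_zero] at h9
  refine Or.inl ⟨_, nondeg_L h.herm h6.on, (finrank_L h6.on).ge, ?_⟩
  rintro _ ⟨z, rfl⟩ hz
  exact h.full h6 (Or.inl rfl) h9 (by simp [wt_eq, Fin.sum_univ_succ, ← hω, hω0]) z
    ((h.even_wt h6.on).1 hz)

end Cen

end Cfsg.Agent.H60.TU
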