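import Cfsg.Agent.H74.UVDefs
import Cfsg.Agent.H26.Num11
import Cfsg.Agent.H12.Central

/-! Project UV, piece DC. -/

set_option autoImplicit false

namespace Cfsg.Agent.H60.UvDc

open Cfsg Module Cfsg.Agent.H31 Cfsg.Agent.H77.Sg Cfsg.Agent.H74.UV

universe u

theorem arith {q t L a : ℕ} {δ : ℤ} (h : q ^ 11 + 1 = 11 * (q + 1) * t)
    (hL : L ∣ q ^ 4 + q ^ 3 + q ^ 2 + q + 1) :
    (L : ℤ) ∣ 11 * t - 1 ∧
      (122 ≤ L → |δ| ≤ 10 → 1 ≤ a → a ≤ 11 → (L : ℤ) ∣ ((a * t : ℕ) : ℤ) - δ → a = 11) := by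
  have h1 : (11 * t - 1 : ℤ) = (q ^ 4 + q ^ 3 + q ^ 2 + q + 1) *
      (q * (q - 1) * (q ^ 4 - q ^ 3 + q ^ 2 - q + 1)) := by
    have h2 : (q : ℤ) ^ 11 + 1 = 11 * (q + 1) * t := by exact_mod_cast h
    refine mul_left_cancel₀ (show (q : ℤ) + 1 ≠ 0 by positivity) ?_
    linear_combination -h2
  have h3 : (L : ℤ) ∣ 11 * t - 1 := by
    rw [h1]
    exact Dvd.dvd.mul_right (by exact_mod_cast hL) _
  refine ⟨h3, fun h50 hδ a1 a7 hd => ?_⟩
  have h4 : (L : ℤ) ∣ a - 11 * δ := by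
    have := (hd.mul_left 11).sub (h3.mul_left a)
    rwa [show 11 * (((a * t : ℕ) : ℤ) - δ) - a * (11 * t - 1) = a - 11 * δ by push_cast; ring] at this
  have h5 := Int.eq_zero_of_abs_lt_dvd h4 (by rw [abs_le] at hδ; rw [abs_lt]; omega)
  omega

theorem dc (h1 : DecStmt.{u}) (h2 : Gl2Stmt.{u}) (h3 : DegaStmt.{u}) : DcStmt.{u} := by
  intro E K _ _ _ _ _ σ B q R t G cu zt ν
  have : Finite (K ≃ₗ[E] K) := Finite.of_injective _ DFunLike.coe_injective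
  have : Fintype G := Fintype.ofFinite _
  obtain ⟨d1, d2⟩ := h1 E K σ B q R t G cu zt
  by_cases hν : ν = 1
  · exact .inl (hν ▸ d1)
  rcases d2 ν hν with d | d
  · exact .inr ⟨hν, d⟩
  left
  have hc := zt.chr G cu.le (fun z hz => (cu.mem z).2 ⟨z, hz, 1, one_mem _, (mul_one z).symm⟩) ν
  have hd : ze q ν (1 : K ≃ₗ[E] K) = (R * t : ℕ) := by rw [zt.deg, dl, if_neg hν, sub_zero]
  have t43 := cu.t43
  have hR := cu.hR
  obtain ⟨χ, hχ, hi⟩ := H11.exists_irr_constituent hc fun e => by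
    have e1 : ze q ν (1 : K ≃ₗ[E] K) = 0 := congrFun e 1
    rw [hd, Nat.cast_eq_zero, mul_eq_zero] at e1
    omega
  obtain ⟨a, a1, aR, ha⟩ := d χ hχ hi
  have e : a = R := by
    rcases hR with ⟨rfl, -⟩ | ⟨rfl, h7⟩
    · omega
    obtain ⟨l, s, hl, l3, hls, h50⟩ := H26.N11.num2 q (le_trans (by norm_num) (cu.q13 rfl)) h7
    have s0 : s ≠ 0 := by rintro rfl; simp at h50
    have gl := h2 E K σ B q l cu.st cu.rk hl l3 ((dvd_pow_self l s0).trans hls) G cu.le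
    have hG : 11 * t - 1 ∣ Nat.card G := H12.irr_degree_dvd_card d1 (by
      change ze q 1 (1 : K ≃ₗ[E] K) = _
      rw [zt.deg, dl, if_pos rfl, Nat.cast_sub (by omega), Nat.cast_one])
    have hL : l ^ s ∣ 11 * t - 1 := by
      have := (arith (a := a) (δ := 0) cu.card hls).1
      rw [← Int.natCast_dvd_natCast, Nat.cast_sub (by omega)]
      exact_mod_cast this
    obtain ⟨δ, hδ, hd'⟩ := h3 G l s hl gl (hL.trans hG) h50 χ hχ
    exact (arith cu.card hls).2 h50 hδ a1 aR (ha ▸ hd')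
  obtain ⟨n, hn⟩ := H11.exists_nat_degree (H11.isCharacter_of_irr hχ)
  have e2 : charDegree χ = n := by rw [charDegree, hn]; simp
  rw [H11.eq_of_classInner_ne_zero_of_degree_eq hc hχ hi (by
    change ze q ν (1 : K ≃ₗ[E] K) = _
    rw [hd, hn, ← e2, ha, e])]
  exact hχ

end Cfsg.Agent.H60.UvDc
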